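import Cfsg.Agent.H91.SgStr2

/-! The normal closure of the torus induces a non-trivial automorphism on it (piece E1). -/

set_option autoImplicit false

namespace Cfsg.Agent.H91.SgE1

open Cfsg.Agent.H77.Sg Module
open Cfsg.Agent.H91.SgStr (gen_mem_SS Pt_le_SS conj_mem_SS)
open Cfsg.Agent.H91.SgStr2 (Pt_le SS_le)

universe u v

theorem ncomp {S : Type*} [Group S] [Finite S] (P : Subgroup S)
    (cop : (Nat.card P).Coprime P.index)
    (key : ∀ p ∈ P, ∀ g, g⁻¹ * p * g ∈ P → g⁻¹ * p * g = p) :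
    ∃ J : Subgroup S, (∀ j, j ∈ J ↔ j ^ P.index = 1) ∧ (∀ g, ∃ j ∈ J, ∃ p ∈ P, g = j * p) ∧
      ∀ j ∈ J, ∀ p ∈ P, ∀ k : ℕ, (Nat.card P).Coprime k → (j * p) ^ k = 1 → p = 1 := by
  let _ : CommGroup P := { (inferInstance : Group P) with
    mul_comm := fun a b => Subtype.ext (by
      have := key a a.2 b (mul_mem (mul_mem (inv_mem b.2) a.2) b.2)
      rw [mul_assoc, inv_mul_eq_iff_eq_mul] at this
      exact this) }
  let V : S →* P := MonoidHom.transfer (MonoidHom.id P)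
  have hV : ∀ p : P, V p = p ^ P.index := fun p => by
    rw [MonoidHom.transfer_eq_pow _ _ fun k g => key _ (pow_mem p.2 k) g]
    rfl
  have sur : ∀ a : P, ∃ p : P, V p = a := fun a => by
    obtain ⟨p, hp⟩ := (powCoprime cop).surjective a
    exact ⟨p, (hV p).trans hp⟩
  have cJ : Nat.card V.ker = P.index := by
    have h1 := V.ker.card_mul_index
    have h2 : V.range = ⊤ := MonoidHom.range_eq_top.2 fun a => (sur a).elim fun p h => ⟨p, h⟩
    rw [Subgroup.index_ker, h2, Subgroup.card_top, ← P.card_mul_index, mul_comm] at h1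
    exact Nat.eq_of_mul_eq_mul_left Nat.card_pos h1
  refine ⟨V.ker, fun j => ⟨fun h => ?_, fun h => ?_⟩, fun g => ?_, fun j hj p hp k hk e => ?_⟩
  · exact congrArg Subtype.val (cJ ▸ pow_card_eq_one' (x := (⟨j, h⟩ : V.ker)))
  · exact (powCoprime cop).injective (by
      rw [powCoprime_one]
      change V j ^ P.index = 1
      rw [← map_pow, h, map_one])
  · obtain ⟨p, hp⟩ := sur (V g)
    exact ⟨g * (p : S)⁻¹, by rw [MonoidHom.mem_ker, map_mul, map_inv, hp, mul_inv_cancel], p, p.2,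
      (inv_mul_cancel_right _ _).symm⟩
  · have h1 := congrArg V e
    rw [map_pow, map_mul, MonoidHom.mem_ker.1 hj, one_mul, map_one, hV ⟨p, hp⟩, ← pow_mul] at h1
    exact congrArg Subtype.val ((powCoprime (cop.mul_right hk)).injective
      (h1.trans (powCoprime_one _).symm))

theorem e1 (block : Block0.{u, v}) (str : Str0.{u, v}) (uc : Uc0.{u, v}) : E10.{u, v} := by
  intro F K _ _ _ _ _ n q t R X h hng
  have kt := H51.SgKit.kit F K (h.hn ▸ h.pn)
  have tS := str F K n q t R X h hng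
  obtain ⟨g, hg, ng⟩ := hng
  have tX : Tr X := fun x y hx hy => (tS x y hx hy).imp fun _ a => ⟨SS_le h a.1, a.2⟩
  have : Finite (K ≃ₗ[F] K) := DFunLike.finite _
  have cP := kt.cardP t (by rw [h.card, Nat.add_sub_cancel]; exact Dvd.intro_left _ rfl)
  have hall := (uc F K n q t R X h).1
  have nm : ∀ (k : K ≃ₗ[F] K) (s a : Kˣ), s ^ t = 1 → s ≠ 1 →
      k * mulH F K s * k⁻¹ = mulH F K a → Nm k := fun k s a hs s1 e =>
    kt.nm_of k s a (kt.ns s t (h.hq ▸ h.cop) hs s1) fun z =>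
      congrArg (fun f : K ≃ₗ[F] K => f z) (mul_inv_eq_iff_eq_mul.1 e)
  by_contra! H
  have cP' : Nat.card ((Pt F K t).subgroupOf (SS X t)) = t := by
    rw [Nat.card_congr (Subgroup.subgroupOfEquivOfLe Pt_le_SS).toEquiv, cP]
  obtain ⟨J, j1, j2, j3⟩ := ncomp ((Pt F K t).subgroupOf (SS X t))
    (by
      rw [cP']
      exact hall.coprime_dvd_right
        (Dvd.intro _ (Subgroup.relIndex_mul_relIndex _ _ _ Pt_le_SS (SS_le h))))
    (by
      rintro ⟨_, hp⟩ ⟨s, hs, rfl⟩ ⟨k, hk⟩ ⟨a, -, e⟩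
      by_cases s1 : s = 1
      · subst s1
        exact Subtype.ext (by simp)
      · obtain ⟨b, rfl⟩ := H k⁻¹ (inv_mem hk) (nm _ s a hs s1 (by rw [inv_inv]; exact e.symm))
          |>.imp fun b (e : _ = k⁻¹) => (inv_eq_iff_eq_inv.1 e.symm)
        refine Subtype.ext ?_
        change (mulH F K b)⁻¹⁻¹ * mulH F K s * (mulH F K b)⁻¹ = mulH F K s
        rw [inv_inv, ← map_mul, mul_comm b, map_mul, mul_inv_cancel_right])
  rw [cP'] at j3
  have st : ∀ x : K, x ≠ 0 → t.Coprime (Nat.card (MulAction.stabilizer X x)) := fun x x0 => by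
    have h1 := (MulAction.stabilizer X x).card_mul_index
    have h2 : MulAction.orbit X x = {0}ᶜ := Set.ext fun y => ⟨by
      rintro ⟨k, rfl⟩
      exact (map_ne_zero_iff k.1 k.1.injective).2 x0, fun hy => by
        obtain ⟨k, hk, e⟩ := tX x y x0 hy
        exact ⟨⟨k, hk⟩, e⟩⟩
    rw [MulAction.index_stabilizer, h2, Set.ncard_compl, Set.ncard_singleton, h.card,
      Nat.add_sub_cancel, ← ((Pt F K t).subgroupOf X).card_mul_index,
      Nat.card_congr (Subgroup.subgroupOfEquivOfLe (Pt_le h)).toEquiv, cP, ← mul_assoc,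
      mul_comm t] at h1
    exact hall.coprime_dvd_right
      (Dvd.intro _ (Nat.eq_of_mul_eq_mul_right (by have := h.big; omega) h1))
  have nb := mt (fun a => block F K n q t R X h tX
    (fun x y => x ≠ 0 ∧ ∃ c : F, c ≠ 0 ∧ ∃ j ∈ J, y = c • j.1 x) ?_ ?_ ?_ ?_ ?_ ?_ a g hg) ng
  · have sc : ∀ j ∈ J, j.1 ∈ (mulH F K).range := fun j hj => by
      obtain ⟨c, hc⟩ := j.1.toLinearMap.exists_eq_smul_id_of_forall_notLinearIndependent
        fun x hx => by
          have x0 : x ≠ 0 := hx.ne_zero 0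
          obtain ⟨c, e⟩ := Submodule.mem_span_singleton.1
            (not_not.1 fun a => nb ⟨x, j.1 x, ⟨x0, 1, one_ne_zero, j, hj, (one_smul _ _).symm⟩, a⟩)
          exact (LinearIndependent.pair_iff' x0).1 hx c e
      have hc : ∀ x, j.1 x = c • x := fun x => congrArg (fun f : K →ₗ[F] K => f x) hc
      exact H _ j.2 fun a => ⟨a, fun x => by rw [hc, hc, mul_smul_comm]⟩
    obtain ⟨_, ⟨s, hs, rfl⟩, s1⟩ := (Subgroup.nontrivial_iff_exists_ne_one _).1
      (Finite.one_lt_card_iff_nontrivial.1 (by rw [cP]; have := h.big; omega))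
    obtain ⟨j, hj, ⟨_, hp⟩, ⟨b, -, rfl⟩, e⟩ := j2 ⟨_, gen_mem_SS hg (mem_Pt.2 ⟨s, hs, rfl⟩)⟩
    obtain ⟨a, ha⟩ := sc j hj
    exact ng (nm g s (a * b) hs (fun e => s1 (by rw [e, map_one]))
      (by rw [map_mul, ha]; exact congrArg Subtype.val e))
  · rintro x _ ⟨x0, c, c0, j, -, rfl⟩
    exact ⟨x0, smul_ne_zero c0 ((map_ne_zero_iff j.1 j.1.injective).2 x0)⟩
  · rintro x _ ⟨x0, c, c0, j, hj, rfl⟩
    refine ⟨smul_ne_zero c0 ((map_ne_zero_iff j.1 j.1.injective).2 x0), c⁻¹, inv_ne_zero c0, j⁻¹,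
      inv_mem hj, ?_⟩
    change x = c⁻¹ • j.1.symm (c • j.1 x)
    rw [map_smul, j.1.symm_apply_apply, inv_smul_smul₀ c0]
  · rintro x _ _ ⟨x0, c, c0, j, hj, rfl⟩ ⟨-, d, d0, k, hk, rfl⟩
    exact ⟨x0, d * c, mul_ne_zero d0 c0, k * j, mul_mem hk hj, by rw [map_smul, smul_smul]; rfl⟩
  · rintro k hk x _ ⟨x0, c, c0, j, hj, rfl⟩
    refine ⟨(map_ne_zero_iff k k.injective).2 x0, c, c0, ⟨_, conj_mem_SS hk j.2⟩,
      (j1 _).2 (Subtype.ext ?_), ?_⟩
    · have := congrArg Subtype.val ((j1 j).1 hj)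
      simp only [SubgroupClass.coe_pow, OneMemClass.coe_one] at this ⊢
      rw [conj_pow, this, mul_one, mul_inv_cancel]
    · change k (c • j.1 x) = c • k (j.1 (k.symm (k x)))
      rw [map_smul, k.symm_apply_apply]
  · exact fun x c x0 c0 => ⟨x0, c, c0, 1, one_mem _, rfl⟩
  · rintro x s hs ⟨x0, c, c0, j, hj, e⟩
    have hp : mulH F K s ∈ Pt F K t := mem_Pt.2 ⟨s, hs, rfl⟩
    set w : SS X t := j⁻¹ * ⟨_, Pt_le_SS hp⟩ with hw
    have w1 : ∀ m : ℕ, (w.1 ^ m) x = c ^ m • x := fun m => by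
      induction m with
      | zero => simp
      | succ m ih =>
        have : w.1 x = c • x := by
          change j.1.symm (s * x) = _
          rw [e, map_smul, j.1.symm_apply_apply]
        rw [pow_succ', LinearEquiv.mul_apply, ih, map_smul, this, smul_smul, pow_succ]
    have w2 : (⟨w.1 ^ (q - 1), SS_le h (pow_mem w.2 _)⟩ : X) ∈ MulAction.stabilizer X x := by
      have := Fintype.ofFinite F
      change (w.1 ^ (q - 1)) x = x
      rw [w1, ← h.hq, Nat.card_eq_fintype_card, FiniteField.pow_card_sub_one_eq_one c c0, one_smul]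
    have w3 := congrArg (fun a : MulAction.stabilizer X x => a.1.1)
      (pow_card_eq_one' (x := (⟨_, w2⟩ : MulAction.stabilizer X x)))
    have := j3 _ (inv_mem hj) ⟨_, Pt_le_SS hp⟩ hp _ (h.cop.mul_right (st x x0))
      (Subtype.ext (by rw [pow_mul]; exact w3))
    exact mulH_injective ((congrArg Subtype.val this).trans (map_one _).symm)

end Cfsg.Agent.H91.SgE1
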