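import Mathlib
import Cfsg.Agent.H25.UGDefs
import Cfsg.Agent.H50.UwWeil
import Cfsg.Agent.H15.UwTw
import Cfsg.Agent.H47.UwGauss
import Cfsg.Agent.H53.UwKit
import Cfsg.Agent.H69.UwWd

/-! The components of the Weil character of the seven-dimensional unitary group. -/

set_option autoImplicit false

namespace Cfsg.Agent.H91.UgZt

open Cfsg Module Cfsg.Agent.H31 Cfsg.Agent.H77.Sg Cfsg.Agent.H25.UG
open Cfsg.Agent.H53.Uw (St fx Sk mem_fx om WeilStmt)

universe u

variable {E K : Type u} [Field E] [Field K] [Algebra E K]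

theorem wo_mul (q : ℕ) {s : Kˣ} (hs : s ≠ 1) : wo q (mulH E K s) = -1 := by
  have : fx (mulH E K s) = ⊥ := eq_bot_iff.2 fun v hv => by
    rw [mem_fx, mulH_apply] at hv
    by_contra h
    exact hs (Units.ext ((mul_eq_right₀ h).1 hv))
  rw [wo, this, finrank_bot, pow_zero]

theorem wo_one (q : ℕ) (h : finrank E K = 7) : wo q (1 : K ≃ₗ[E] K) = (q : ℂ) ^ 7 := by
  have : fx (1 : K ≃ₗ[E] K) = ⊤ := eq_top_iff.2 fun v _ => mem_fx.2 rfl
  rw [wo, this, finrank_top, h]
  ring

theorem wo_cls (q : ℕ) (g k : K ≃ₗ[E] K) : wo q (k * g * k⁻¹) = wo q g := by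
  have : fx (k * g * k⁻¹) = (fx g).map (k : K →ₗ[E] K) := by
    ext x
    rw [Submodule.mem_map_equiv, mem_fx, mem_fx]
    change k (g (k.symm x)) = x ↔ _
    rw [← LinearEquiv.eq_symm_apply]
  rw [wo, wo, this, LinearEquiv.finrank_map_eq]

theorem orth1 {Z : Type u} [Group Z] [Fintype Z] [DecidableEq (Z →* ℂˣ)] (ν : Z →* ℂˣ) :
    ∑ z, (((ν z)⁻¹ : ℂˣ) : ℂ) = if ν = 1 then (Nat.card Z : ℂ) else 0 := by
  have := H53.Uw.H69.orth 1 ν
  simp only [MonoidHom.one_apply, Units.val_one, mul_one, map_inv] at this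
  rw [this]
  exact if_congr eq_comm rfl rfl

theorem orth2 {Z : Type u} [CommGroup Z] [Finite Z] [Fintype (Z →* ℂˣ)] [DecidableEq Z] (z : Z) :
    ∑ ν : Z →* ℂˣ, (((ν z)⁻¹ : ℂˣ) : ℂ) = if z = 1 then (Nat.card (Z →* ℂˣ) : ℂ) else 0 := by
  split_ifs with h
  · subst h
    simp [Nat.card_eq_fintype_card]
  · obtain ⟨φ, hφ⟩ := CommGroup.exists_apply_ne_one_of_hasEnoughRootsOfUnity Z ℂ (inv_ne_one.2 h)
    have := sum_hom_units_eq_zero ((Units.coeHom ℂ).comp (MonoidHom.eval z⁻¹ : (Z →* ℂˣ) →* ℂˣ))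
      (fun e => hφ (Units.ext (DFunLike.congr_fun e φ)))
    simpa using this

theorem zt_of (weil : WeilStmt.{u}) : ZtStmt.{u} := by
  intro E K _ _ _ _ _ σ B q R t kt
  classical
  let _ := Fintype.ofFinite (Rt K (q + 1))
  have fC : Finite (Ch K q) := Nat.finite_of_card_ne_zero (by rw [kt.cardCh]; omega)
  let _ := Fintype.ofFinite (Ch K q)
  have cq : ((q : ℂ) + 1) ≠ 0 := by exact_mod_cast Nat.succ_ne_zero q
  have cZ : (Nat.card (Rt K (q + 1)) : ℂ) = q + 1 := by rw [kt.cardZ, Nat.cast_succ]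
  have com : ∀ (z : Rt K (q + 1)) (g : K ≃ₗ[E] K), mulH E K z * g = g * mulH E K z := fun z g => by
    obtain ⟨c, -, hc⟩ := kt.zE z z.2
    ext x
    change (z : Kˣ) * g x = g ((z : Kˣ) * x)
    rw [hc, ← Algebra.smul_def, ← Algebra.smul_def, map_smul]
  have dlν : ∀ ν : Ch K q, ((q : ℂ) + 1)⁻¹ * ∑ z, (((ν z)⁻¹ : ℂˣ) : ℂ) = dl ν := fun ν => by
    rw [orth1, dl, cZ]
    split_ifs
    · exact inv_mul_cancel₀ cq
    · exact mul_zero _
  refine ⟨fun G hG hZ ν => ?_, fun g => ?_, fun ν => ?_, fun ν s _ hs => ?_, fun ν z g => ?_, com,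
    wo_cls q, fun g => ?_⟩
  · let _ := Fintype.ofFinite G
    let f : Rt K (q + 1) →* G :=
      ((mulH E K).comp (Rt K (q + 1)).subtype).codRestrict G fun z => hZ z z.2
    have fi : Function.Injective f := fun a b e =>
      Subtype.ext (mulH_injective (congrArg Subtype.val e))
    let e := MonoidHom.ofInjective fi
    let _ := Fintype.ofFinite f.range
    have hc : f.range ≤ Subgroup.center G := by
      rintro _ ⟨z, rfl⟩
      exact Subgroup.mem_center_iff.2 fun g => Subtype.ext (com z g).symm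
    have hω : IsCharacter G fun g => wo q g.1 := by
      have := H11.isCharacter_comp (weil E K σ B q kt.st) (Subgroup.inclusion hG)
      convert this using 2 with g
      rw [wo, om, kt.rk]
      change _ = (-1) ^ 7 * (-(q : ℂ)) ^ finrank E (fx g.1)
      ring
    have := H53.Uw.H69.isChar_pr hc (ν.comp e.symm.toMonoidHom) hω
    convert this using 2 with g
    rw [ze, H53.Uw.H69.pr, ← Nat.card_congr e.toEquiv, cZ, finsum_eq_sum_of_fintype]
    congr 1
    refine Fintype.sum_equiv e.toEquiv _ _ fun z => ?_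
    have e1 : (ν.comp e.symm.toMonoidHom) (e z)⁻¹ = (ν z)⁻¹ := by
      rw [map_inv, MonoidHom.comp_apply, MulEquiv.coe_toMonoidHom, MulEquiv.symm_apply_apply]
    exact congrArg₂ (fun (a : ℂˣ) (b : K ≃ₗ[E] K) => (a : ℂ) * wo q b) e1.symm rfl
  · simp only [ze, finsum_eq_sum_of_fintype]
    rw [← Finset.mul_sum, Finset.sum_comm]
    simp only [← Finset.sum_mul, orth2, ite_mul, zero_mul]
    rw [Finset.sum_ite_eq', if_pos (Finset.mem_univ _), kt.cardCh, Nat.cast_succ,
      inv_mul_cancel_left₀ cq, OneMemClass.coe_one, map_one, one_mul]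
  · have e : ∑ z : Rt K (q + 1), (((ν z)⁻¹ : ℂˣ) : ℂ) * wo q (mulH E K z * 1) =
        ∑ z : Rt K (q + 1), ((if z = 1 then (q : ℂ) ^ 7 + 1 else 0) - (((ν z)⁻¹ : ℂˣ) : ℂ)) := by
      refine Finset.sum_congr rfl fun z _ => ?_
      split_ifs with hz
      · subst hz
        rw [OneMemClass.coe_one, map_one, map_one, mul_one (1 : K ≃ₗ[E] K), wo_one q kt.rk, inv_one,
          Units.val_one]
        ring
      · rw [mul_one, wo_mul q fun e => hz (Subtype.ext e)]
        ring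
    have hc : (q : ℂ) ^ 7 + 1 = (q + 1) * (R * t : ℕ) := by
      have : ((q ^ 7 + 1 : ℕ) : ℂ) = (R * (q + 1) * t : ℕ) := by rw [kt.card]
      push_cast at this ⊢
      rw [this]
      ring
    rw [ze, finsum_eq_sum_of_fintype, e, Finset.sum_sub_distrib, Finset.sum_ite_eq',
      if_pos (Finset.mem_univ _), mul_sub, dlν, hc, inv_mul_cancel_left₀ cq]
  · have e : ∀ z : Rt K (q + 1), wo q (mulH E K z * mulH E K s) = -1 := fun z => by
      rw [← map_mul]
      refine wo_mul q fun e => hs ?_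
      rw [eq_inv_of_mul_eq_one_right e]
      exact inv_mem z.2
    rw [ze, finsum_eq_sum_of_fintype, ← dlν]
    simp only [e, mul_neg, mul_one, Finset.sum_neg_distrib]
  · rw [ze, ze, finsum_eq_sum_of_fintype, finsum_eq_sum_of_fintype, mul_left_comm,
      Finset.mul_sum (a := ((ν z : ℂˣ) : ℂ))]
    congr 1
    refine Fintype.sum_equiv (Equiv.mulRight z) _ _ fun y => ?_
    rw [Equiv.coe_mulRight, map_mul, Subgroup.coe_mul, map_mul, mul_assoc (mulH E K y), mul_inv,
      Units.val_mul, ← mul_assoc ((ν z : ℂˣ) : ℂ), mul_left_comm ((ν z : ℂˣ) : ℂ), Units.mul_inv,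
      mul_one]
  · have e : Nat.card {x : K // g x = x} = Nat.card (fx g) :=
      Nat.card_congr (Equiv.subtypeEquivRight fun x => mem_fx.symm)
    have : Module.Finite E K := Module.Finite.of_finite
    rw [e, Module.natCard_eq_pow_finrank (K := E), Nat.card_eq_fintype_card, kt.st.card, wo,
      neg_mul_neg, ← mul_pow, neg_mul_neg, ← sq]
    push_cast
    rfl

theorem zt : ZtStmt.{u} :=
  zt_of (H50.UwWeil.weil H47.UwGauss.gauss H15.UwTw.tw H53.Uw.kit)

end Cfsg.Agent.H91.UgZt
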