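import Mathlib
import Cfsg.Agent.H74.UVDefs

/-! A stabiliser of a non-isotropic vector with a large determinant. -/

set_option autoImplicit false

namespace Cfsg.Agent.H91.UvDetb

open Cfsg Module Cfsg.Agent.H31 Cfsg.Agent.H77.Sg Cfsg.Agent.H74.UV
open Cfsg.Agent.H53.Uw (finEquiv)

universe u

theorem not_pp {p f a b : ℕ} (hp : p.Prime) (ha : a.Prime) (hb : b.Prime) (hab : a ≠ b) :
    p ^ f ≠ a * b := fun e =>
  hab (((Nat.prime_dvd_prime_iff_eq ha hp).1 (ha.dvd_of_dvd_pow (e ▸ dvd_mul_right a b))).trans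
    ((Nat.prime_dvd_prime_iff_eq hb hp).1 (hb.dvd_of_dvd_pow (e ▸ dvd_mul_left b a))).symm)

theorem detb (orby : OrbyStmt.{u}) (orbg : OrbgStmt.{u}) (isost : IsostStmt.{u}) :
    DetbStmt.{u} := by
  intro E K _ _ _ _ _ σ B q R t G cu zt hn irr
  by_contra hD
  let Y : Subgroup (K ≃ₗ[E] K) :=
    G ⊓ ((powMonoidHom 2 : Eˣ →* Eˣ).comp LinearEquiv.det).ker
  have mY : ∀ g, g ∈ Y ↔ g ∈ G ∧ LinearEquiv.det g ^ 2 = 1 := fun g => Iff.rfl
  have zG : ∀ z ∈ Rt K (q + 1), mulH E K z ∈ G := fun z hz =>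
    (cu.mem z).2 ⟨z, hz, 1, one_mem _, (mul_one z).symm⟩
  have h1 := orby E K σ B q R t G Y cu zt inf_le_left (fun g hg => by
    obtain ⟨z, hz, e⟩ := cu.dz g hg
    exact ⟨z, hz, (mY _).2 ⟨mul_mem (zG z hz) hg, by rw [e, one_pow]⟩⟩) irr
  have h2 := orbg E K G Y inf_le_left fun w hw g hg e =>
    (mY g).2 ⟨hg, isost E K σ B q G cu.st cu.le hD w hw g hg e⟩
  have h3 : Y.relIndex G ≠ 0 := Subgroup.index_ne_zero_of_finite
  rw [hn, mul_add, mul_comm _ q] at h2
  have h4 : G ≤ Y := Subgroup.relIndex_eq_one.1 (by omega)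
  have : Module.Finite E K := Module.Finite.of_finite
  have h5 : ∀ z : Rt K (q + 1), z ^ 22 = 1 := fun z => by
    obtain ⟨c, -, hc⟩ := cu.zE z z.2
    have e : ((mulH E K z : K ≃ₗ[E] K) : K →ₗ[E] K) = c • LinearMap.id := by
      ext x
      change (z : Kˣ) * x = c • x
      rw [hc, Algebra.smul_def]
    have e2 := congrArg Units.val ((mY _).1 (h4 (zG z z.2))).2
    rw [Units.val_pow_eq_pow_val, LinearEquiv.coe_det, e, LinearMap.det_smul, LinearMap.det_id,
      mul_one, cu.rk, ← pow_mul, Units.val_one] at e2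
    refine Subtype.ext (Units.ext ?_)
    rw [Subgroup.coe_pow, Units.val_pow_eq_pow_val, hc, ← map_pow, e2, map_one]
    rfl
  have h6 : q + 1 ∣ 22 := by
    rw [← cu.cardZ, ← IsCyclic.exponent_eq_card]
    exact Monoid.exponent_dvd_of_forall_pow_eq_one h5
  obtain ⟨p, f, hp, -, -, -, hq⟩ := cu.pp
  have q2 := cu.q2
  have h7 := Nat.le_of_dvd (by norm_num) h6
  have h8 : q = 2 * 5 ∨ q = 3 * 7 := by
    clear * - h6 h7 q2
    have : q ≤ 21 := by omega
    interval_cases q <;> simp_all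
  rcases h8 with e | e
  · exact not_pp hp Nat.prime_two Nat.prime_five (by norm_num) (hq.symm.trans e)
  · exact not_pp hp Nat.prime_three (by norm_num) (by norm_num) (hq.symm.trans e)

end Cfsg.Agent.H91.UvDetb
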