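import Cfsg.Agent.H91.SgStr2

/-! From pairs of points to pairs of vectors (piece NUV). -/

set_option autoImplicit false

namespace Cfsg.Agent.H91.SgNuV

open Cfsg.Agent.H77.Sg Module
open Cfsg.Agent.H91.SgStr2 (Pt_le)

universe u v

theorem card_dvd_ncard (G : Type*) {Ω : Type*} [Group G] [MulAction G Ω] (B : Set Ω)
    (h1 : ∀ (g : G), ∀ z ∈ B, g • z ∈ B) (h2 : ∀ (g : G), ∀ z ∈ B, g • z = z → g = 1) :
    Nat.card G ∣ B.ncard := by
  let S : SubMulAction G Ω := ⟨B, fun g z hz => h1 g z hz⟩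
  have := Nat.card_congr (MulAction.selfEquivOrbitsQuotientProd (G := G) (X := S) fun b =>
    eq_bot_iff.2 fun g hg => h2 g b b.2 (congrArg Subtype.val hg))
  rw [Nat.card_prod] at this
  exact Dvd.intro_left _ this.symm

theorem nuV : NuV0.{u, v} := by
  intro F K _ _ _ _ _ n q t R X h c nu big x y x0 hy s hs s1
  have kt := H51.SgKit.kit F K (h.hn ▸ h.pn)
  have cP := kt.cardP t (by rw [h.card, Nat.add_sub_cancel]; exact Dvd.intro_left _ rfl)
  let O : F → K → K → Prop := fun d x' y' => ∃ g ∈ X, g x = x' ∧ d • g y = y'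
  have o1 : ∀ d, ∀ g ∈ X, ∀ x' y', O d x' y' → O d (g x') (g y') := by
    rintro d g hg _ _ ⟨k, hk, rfl, rfl⟩
    exact ⟨g * k, mul_mem hg hk, rfl, (map_smul g d _).symm⟩
  have o2 : ∀ d, d ≠ 0 → ∀ x', ¬ O d x' x' := by
    rintro d d0 _ ⟨k, -, rfl, e⟩
    rw [← map_smul] at e
    exact hy (Submodule.mem_span_singleton.2 ⟨d⁻¹, by rw [← k.injective e, inv_smul_smul₀ d0]⟩)
  have o3 : ∀ d, d ≠ 0 → ∀ x', x' ≠ 0 →
      {y' | y' ≠ 0 ∧ O d x' y'}.ncard = {y' | y' ≠ 0 ∧ O 1 x y'}.ncard := by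
    intro d d0 x' hx'
    obtain ⟨g, hg, rfl⟩ := c.tr x x' x0 hx'
    rw [← Set.ncard_image_of_injective {y' | y' ≠ 0 ∧ O 1 x y'}
      ((smul_right_injective K d0).comp g.injective)]
    congr 1
    ext y'
    constructor
    · rintro ⟨y0, k, hk, e, rfl⟩
      refine ⟨g.symm (k y), ⟨fun e' => y0 ?_, g⁻¹ * k, mul_mem (inv_mem hg) hk, ?_, one_smul _ _⟩,
        by simp⟩
      · rw [(map_eq_zero_iff _ g.symm.injective).1 e', smul_zero]
      · change g.symm (k x) = x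
        rw [e, g.symm_apply_apply]
    · rintro ⟨_, ⟨y0, k, hk, e, rfl⟩, rfl⟩
      exact ⟨smul_ne_zero d0 ((map_ne_zero_iff g g.injective).2 y0), g * k, mul_mem hg hk,
        congrArg g e, by simp⟩
  have o4 : ∀ d, (q - 1) * t ∣ {z | z ≠ 0 ∧ O d z (s * z)}.ncard := fun d => by
    have st : ∀ a : Kˣ, mulH F K a ∈ X → ∀ z ∈ {z | z ≠ 0 ∧ O d z (s * z)},
        a * z ∈ {z | z ≠ 0 ∧ O d z (s * z)} := fun a ha z hz =>
      ⟨mul_ne_zero a.ne_zero hz.1, by
        have := o1 d _ ha _ _ hz.2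
        rwa [mulH_apply, mulH_apply, mul_left_comm] at this⟩
    refine h.cop.symm.mul_dvd_of_dvd_of_dvd ?_ ?_
    · rw [← h.hq, ← Nat.card_units]
      refine card_dvd_ncard Fˣ _ (fun a z hz => ?_) fun a z hz e => ?_
      · have := st (Units.map (algebraMap F K : F →* K) a)
          ((h.mem _).2 ⟨a, 1, one_pow t, by simp [Algebra.smul_def]⟩) z hz
        rwa [Units.smul_def, Algebra.smul_def]
      · exact Units.ext (smul_left_injective F hz.1 (e.trans (one_smul F z).symm))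
    · rw [← cP]
      refine card_dvd_ncard (Pt F K t) _ ?_ ?_
      · rintro ⟨_, a, ha, rfl⟩ z hz
        exact st a (Pt_le h (mem_Pt.2 ⟨a, ha, rfl⟩)) z hz
      · rintro ⟨_, a, ha, rfl⟩ z hz e
        obtain rfl : a = 1 := Units.ext (mul_right_cancel₀ hz.1 (e.trans (one_mul z).symm))
        exact Subtype.ext (map_one _)
  by_contra H
  have b0 : {z | z ≠ 0 ∧ O 1 z (s * z)}.ncard = 0 * t := by
    rw [zero_mul, Set.ncard_eq_zero]
    exact Set.eq_empty_of_forall_notMem fun z ⟨z0, g, hg, e1, e2⟩ =>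
      H ⟨z, z0, g, hg, e1, (one_smul F _).symm.trans e2⟩
  obtain ⟨s0, hs0, s01, z, d, z0, d0, hz⟩ := nu x y x0 hy
  obtain ⟨b, hb⟩ := o4 d
  have b1 : 1 ≤ b := Nat.pos_of_ne_zero fun e => by
    rw [e, mul_zero, c.const _ (o1 d) s s0 hs hs0 s1 s01, Set.ncard_eq_zero] at hb
    exact Set.eq_empty_iff_forall_notMem.1 hb z ⟨z0, hz⟩
  have i1 := c.ineq _ (o1 1) (o2 1 one_ne_zero) _ 0 (o3 1 one_ne_zero) s hs s1 b0
  have i2 := c.ineq _ (o1 d) (o2 d d0) _ ((q - 1) * b) (o3 d d0) s hs s1 (by rw [hb]; ring)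
  have t1 : 1 ≤ t := by have := h.big; omega
  generalize {y' | y' ≠ 0 ∧ O 1 x y'}.ncard = k at i1 i2
  generalize R * (q - 1) = m at i1 i2 big
  generalize q - 1 = r at i2 big
  zify [t1] at big b1
  push_cast at i1 i2
  have m0 : (0 : ℤ) ≤ (m : ℤ) ^ 3 := by positivity
  have k0 : (0 : ℤ) ≤ k := by positivity
  have k1 : (k : ℤ) ≤ (m : ℤ) ^ 3 := by nlinarith
  have k2 : (r : ℤ) * (t - 1) ≤ r * b * (t - 1) := by nlinarith
  nlinarith

end Cfsg.Agent.H91.SgNuV
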