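import Cfsg.Agent.H77.SgDefs

/-! Products of linear forms with prescribed reduced coefficients are monomial (piece PALG). -/

set_option autoImplicit false

namespace Cfsg.Agent.H91.SgPalg

open Cfsg.Agent.H77.Sg MvPolynomial Finsupp

universe u v

variable {L : Type v} [Field L] {n : ℕ}

theorem coeff_lin (b : Fin n → L) (m : ℕ) (f : MvPolynomial (Fin n) L) (ν : Fin n →₀ ℕ) :
    coeff ν ((∑ r, C (b r) * X r ^ m) * f) =
      ∑ r, if m ≤ ν r then b r * coeff (ν - single r m) f else 0 := by
  rw [Finset.sum_mul, coeff_sum]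
  refine Finset.sum_congr rfl fun r _ => ?_
  rw [C_mul_X_pow_eq_monomial, coeff_monomial_mul']
  simp only [single_le_iff]

theorem coeff_lin1 (b : Fin n → L) (f : MvPolynomial (Fin n) L) (ν : Fin n →₀ ℕ) :
    coeff ν ((∑ r, C (b r) * X r) * f) =
      ∑ r, if 1 ≤ ν r then b r * coeff (ν - single r 1) f else 0 := by
  simpa only [pow_one] using coeff_lin b 1 f ν

theorem coeff_one (b : Fin n → L) (j : Fin n) (m : ℕ) :
    coeff (single j m) ((∑ r, C (b r) * X r : MvPolynomial (Fin n) L) ^ m) = b j ^ m := by
  induction m with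
  | zero => simp
  | succ m ih =>
    rw [pow_succ', coeff_lin1, Finset.sum_eq_single j (fun r _ hr => by simp [hr]) (by simp),
      if_pos (by simp), ← single_tsub, Nat.add_sub_cancel, ih, pow_succ']

theorem coeff_two (b : Fin n → L) {j k : Fin n} (h : j ≠ k) (m : ℕ) :
    coeff (single j m + single k 1) ((∑ r, C (b r) * X r : MvPolynomial (Fin n) L) ^ (m + 1)) =
      (m + 1 : ℕ) * b j ^ m * b k := by
  induction m with
  | zero => simpa using coeff_one b k 1
  | succ m ih =>
    rw [pow_succ', coeff_lin1, Finset.sum_eq_add j k h (fun r _ hr => by simp [hr.1, hr.2])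
      (by simp) (by simp), if_pos (by simp [h]), if_pos (by simp [h.symm]), add_tsub_cancel_right,
      coeff_one, single_add, add_right_comm, add_tsub_cancel_right, ih]
    push_cast
    ring

theorem palg : PolyAlgStmt.{v} := by
  intro L _ p hp _ n c a hδ h i j k jk
  have p2 := hp.out.two_le
  set κ : Fin n →₀ ℕ := equivFunOnFinite.symm fun _ => c with hκ
  have κa : ∀ r, κ r = c := fun _ => rfl
  set l : Fin n → MvPolynomial (Fin n) L := fun i => ∑ j, C (a i j) * X j with hl
  set Λ := (∏ i, l i) ^ c with hΛ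
  have hom : ∀ ν : Fin n →₀ ℕ, ∑ j, ν j ≠ n * c → coeff ν Λ = 0 := fun ν hν => by
    have := (IsHomogeneous.prod Finset.univ l (fun _ => 1) fun i _ =>
      IsHomogeneous.sum _ _ _ fun j _ => isHomogeneous_C_mul_X (a i j) j).pow c
    refine this.coeff_eq_zero ?_
    rwa [degree_eq_sum, Finset.sum_const, Finset.card_univ, Fintype.card_fin, smul_eq_mul, mul_one]
  obtain ⟨G, hG⟩ : ∃ G, ∀ d, d + c = p → l i ^ d * Λ = (∑ r, C (a i r ^ p) * X r ^ p) * G := by
    refine ⟨(∏ r ∈ Finset.univ.erase i, l r) ^ c, fun d hd => ?_⟩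
    rw [hΛ, ← Finset.mul_prod_erase _ _ (Finset.mem_univ i), mul_pow, ← mul_assoc, ← pow_add, hd,
      hl, sum_pow_char]
    simp only [mul_pow, map_pow]
  rcases h with ⟨c1, c2, h⟩ | ⟨c1, h⟩
  · obtain ⟨m, hm⟩ : ∃ m, m + 1 + c = p := ⟨p - c - 1, by omega⟩
    have red : ∀ r, (single j m + single k 1 + κ : Fin n →₀ ℕ) r < p := fun r => by
      simp only [Finsupp.add_apply, single_apply, κa]
      split_ifs with h1 h2
      · exact absurd (h1.trans h2.symm) jk
      all_goals omega
    have e := congrArg (coeff (single j m + single k 1 + κ)) (hG _ hm)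
    rw [coeff_lin, Finset.sum_eq_zero fun r _ => if_neg (not_le.2 (red r)), coeff_mul,
      Finset.sum_eq_single (single j m + single k 1, κ) (fun x hx hne => ?_) (by simp), hl,
      coeff_two _ jk] at e
    · have m0 : ((m + 1 : ℕ) : L) ≠ 0 := fun e' =>
        absurd (Nat.le_of_dvd m.succ_pos ((CharP.cast_eq_zero_iff L p _).1 e')) (by omega)
      rcases mul_eq_zero.1 ((mul_eq_zero.1 e).resolve_right hδ) with e | e
      · rw [pow_eq_zero_iff (by omega) |>.1 ((mul_eq_zero.1 e).resolve_left m0), zero_mul]
      · rw [e, mul_zero]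
    · rw [Finset.HasAntidiagonal.mem_antidiagonal] at hx
      by_cases hs : ∑ r, x.2 r = n * c
      · rw [h x.2 (fun r => lt_of_le_of_lt (by rw [← hx]; exact Nat.le_add_left _ _) (red r)) hs
          (not_forall.1 fun H => hne ?_), mul_zero]
        have : x.2 = κ := Finsupp.ext H
        exact Prod.ext (add_right_cancel (this ▸ hx)) this
      · rw [hom _ hs, mul_zero]
  · have h' : ∀ (ν : Fin n →₀ ℕ) (j₀ : Fin n), p ≤ ν j₀ → ν j₀ < 2 * p →
        (∀ j, j ≠ j₀ → ν j < p) → coeff ν Λ = 0 := fun ν j₀ h1 h2 h3 =>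
      (em _).elim (h ν j₀ h1 h2 h3) (hom ν)
    have e := hG 1 (by omega)
    rw [pow_one] at e
    have ρa : ∀ r, (κ - single j c : Fin n →₀ ℕ) r ≤ c := fun r => by
      rw [Finsupp.tsub_apply, κa]; omega
    have R : ∀ s, coeff (κ - single j c + single s p) (l i * Λ) =
        a i s ^ p * coeff (κ - single j c) G := fun s => by
      rw [e, coeff_lin, Finset.sum_eq_single s (fun r _ hr => if_neg ?_) (by simp),
        if_pos (by simp), add_tsub_cancel_right]
      have := ρa r
      rw [Finsupp.add_apply, single_eq_of_ne hr]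
      omega
    have e1 := R j
    have e2 := R k
    have ν1 : κ - single j c + single j p = κ + single j 1 := Finsupp.ext fun r => by
      simp only [Finsupp.add_apply, Finsupp.tsub_apply, single_apply, κa]
      split_ifs <;> omega
    rw [ν1, hl, coeff_lin1, Finset.sum_eq_single j (fun r _ hr => ?_) (by simp), if_pos (by simp),
      add_tsub_cancel_right] at e1
    · rw [hl, coeff_lin1, Finset.sum_eq_zero fun r _ => ?_] at e2
      · rcases mul_eq_zero.1 e2.symm with e2 | e2
        · rw [pow_eq_zero_iff (by omega) |>.1 e2, mul_zero]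
        · rw [e2, mul_zero] at e1
          rw [(mul_eq_zero.1 e1).resolve_right hδ, zero_mul]
      · rw [h' _ k, mul_zero, ite_self]
        · simp only [Finsupp.add_apply, Finsupp.tsub_apply, single_apply, κa, if_neg jk, if_true]
          split_ifs <;> omega
        · simp only [Finsupp.add_apply, Finsupp.tsub_apply, single_apply, κa, if_neg jk, if_true]
          split_ifs <;> omega
        · intro s hs
          have := ρa s
          rw [Finsupp.tsub_apply, Finsupp.add_apply, single_eq_of_ne hs]
          omega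
    · rw [h' _ j, mul_zero, ite_self]
      · simp only [Finsupp.add_apply, Finsupp.tsub_apply, single_apply, κa, if_neg hr, if_true]
        omega
      · simp only [Finsupp.add_apply, Finsupp.tsub_apply, single_apply, κa, if_neg hr, if_true]
        omega
      · intro s hs
        rw [Finsupp.tsub_apply, Finsupp.add_apply, single_eq_of_ne hs, κa]
        omega

end Cfsg.Agent.H91.SgPalg
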