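/-
Kit for the normalisers and centralisers of the model `2 ^ 10 : L₅(2)`.
-/
import Cfsg.Agent.H17.LPDefs

set_option autoImplicit false

namespace Cfsg.Agent.H91.LpNrmA

open Cfsg Subgroup Matrix Cfsg.Agent.H17.LP

theorem gh (n : N0) : n.g.1 * (n.g⁻¹).1 = 1 := by rw [← coe_mul', mul_inv_cancel]; rfl
theorem hg (n : N0) : (n.g⁻¹).1 * n.g.1 = 1 := by rw [← coe_mul', inv_mul_cancel]; rfl
theorem one_of_mul : ∀ x y : F, x * y = 1 → x = 1 ∧ y = 1 := by decide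

theorem rowd (n : N0) (k : Fin 5) (h : ∀ j, j ≠ k → n.g.1 k j = 0) : n.g.1 k k = 1 := by
  have e := congrFun (congrFun (gh n) k) k
  rw [mul_apply, Finset.sum_eq_single k (fun j _ hj => by rw [h j hj, zero_mul]) (by simp),
    one_apply_eq] at e
  exact (one_of_mul _ _ e).1

theorem cold (n : N0) (k : Fin 5) (h : ∀ j, j ≠ k → n.g.1 j k = 0) : n.g.1 k k = 1 := by
  have e := congrFun (congrFun (hg n) k) k
  rw [mul_apply, Finset.sum_eq_single k (fun j _ hj => by rw [h j hj, mul_zero]) (by simp),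
    one_apply_eq] at e
  exact (one_of_mul _ _ e).2

theorem pat_mono {S R S' R' : ℕ → ℕ → Bool} {h : Cl S R} {h' : Cl S' R'}
    (hS : ∀ i j : Fin 5, S' (i + 1) (j + 1) = false → S (i + 1) (j + 1) = false)
    (hR : ∀ i j : Fin 5, R' (i + 1) (j + 1) = false → R (i + 1) (j + 1) = false) :
    Pat S R h ≤ Pat S' R' h' := fun _ hn =>
  mem_Pat.2 ⟨fun i j e => (mem_Pat.1 hn).1 i j (hS i j e), fun i j e => (mem_Pat.1 hn).2 i j (hR i j e)⟩

theorem zz_symm (i j : ℕ) : zz i j = zz j i := N0.ext (add_comm _ _) rfl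

/-- The pairs `i < j`. -/
def prs : List (ℕ × ℕ) :=
  [(1, 2), (1, 3), (1, 4), (1, 5), (2, 3), (2, 4), (2, 5), (3, 4), (3, 5), (4, 5)]

theorem gen1 (g : GenStmt) {S R : ℕ → ℕ → Bool} {h : Cl S R}
    (hR : ∀ i ∈ [1, 2, 3, 4, 5], ∀ j ∈ [1, 2, 3, 4, 5], R i j = true → i < j) (H : Subgroup N0)
    (hz : ∀ p ∈ prs, S p.1 p.2 = true → zz p.1 p.2 ∈ H)
    (hx : ∀ p ∈ prs, R p.1 p.2 = true → xx p.1 p.2 ∈ H) : Pat S R h ≤ H := by
  have m : ∀ i ∈ [1, 2, 3, 4, 5], ∀ j ∈ [1, 2, 3, 4, 5], i < j → (i, j) ∈ prs := by decide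
  have m2 : ∀ i : Fin 5, (i : ℕ) + 1 ∈ [1, 2, 3, 4, 5] := by decide
  have hT : Pat S R h ≤ T0 := by
    refine pat_mono (fun i j e => by simp at e) (fun i j e => ?_)
    by_contra c
    have := hR _ (m2 i) _ (m2 j) (by simpa using c)
    simp at e
    omega
  rw [g.1 S R h hT, closure_le]
  rintro n ⟨i, hi, j, hj, hij, ⟨h1, h2, rfl⟩ | ⟨h1, rfl⟩⟩
  · rcases lt_or_gt_of_ne hij with c | c
    · exact hz _ (m i hi j hj c) h1
    · rw [zz_symm]; exact hz _ (m j hj i hi c) h2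
  · exact hx _ (m i hi j hj (hR i hi j hj h1)) h1

theorem mem_nrm {x : N0} {Y : Subgroup N0}
    (h : Y ≤ Y.comap (MulAut.conj x).toMonoidHom) : x ∈ normalizer (Y : Set N0) :=
  mem_normalizer_fintype fun n hn => by simpa using h hn

theorem mem_cj {x s : N0} {Y : Subgroup N0} (hx : x * x = 1) (h : x * s * x ∈ Y) :
    s ∈ Y.comap (MulAut.conj x).toMonoidHom := by
  have : x⁻¹ = x := inv_eq_of_mul_eq_one_right hx
  simpa [this] using h

theorem nrm_pat (g : GenStmt) {S R : ℕ → ℕ → Bool} {h : Cl S R}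
    (hR : ∀ i ∈ [1, 2, 3, 4, 5], ∀ j ∈ [1, 2, 3, 4, 5], R i j = true → i < j) {x : N0}
    (hx : x * x = 1 ∧ ∀ p ∈ prs, (S p.1 p.2 = true → x * zz p.1 p.2 * x ∈ Pat S R h) ∧
      (R p.1 p.2 = true → x * xx p.1 p.2 * x ∈ Pat S R h)) :
    x ∈ normalizer (Pat S R h : Set N0) :=
  mem_nrm (gen1 g hR _ (fun p hp e => mem_cj hx.1 ((hx.2 p hp).1 e))
    (fun p hp e => mem_cj hx.1 ((hx.2 p hp).2 e)))

theorem mem_A0 {n : N0} : n ∈ A0 ↔ n.g = 1 :=
  ⟨fun h => Subtype.ext (by ext i j; exact (mem_Pat.1 h).2 i j rfl), fun h =>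
    mem_Pat.2 ⟨fun i j e => by simp at e, fun i j _ => by rw [h]; rfl⟩⟩

theorem A0_normal : A0.Normal := ⟨fun n hn g => by
  rw [mem_A0] at hn ⊢
  simp [hn]⟩

theorem A0_comm {x y : N0} (hx : x ∈ A0) (hy : y ∈ A0) : x * y = y * x := by
  rw [mem_A0] at hx hy
  refine N0.ext ?_ (by simp [hx, hy])
  simp [hx, hy, add_comm]

theorem Xv {i j : ℕ} (h : ix i ≠ ix j) : (xx i j).g.1 = 1 + single (ix i) (ix j) 1 := by
  have e : X i j = ⟨1 + single (ix i) (ix j) 1, det_transvection_of_ne _ _ h 1⟩ := dif_neg h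
  exact congrArg Subtype.val e

theorem xx_a (i j : ℕ) : (xx i j).a = 0 := rfl
theorem zz_g (i j : ℕ) : (zz i j).g = 1 := rfl
theorem zz_a (i j : ℕ) : (zz i j).a = single (ix i) (ix j) 1 + single (ix j) (ix i) 1 := rfl

theorem mulX (g : M5) (a b k : Fin 5) : (g * (1 + single a b 1 : M5)) k b = g k b + g k a := by
  simp [Matrix.mul_add]

theorem mulZ (g : M5) {a b : Fin 5} (h : a ≠ b) (k : Fin 5) :
    (g * (single a b 1 + single b a 1 : M5)) k b = g k a := by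
  simp [Matrix.mul_add, mul_single_apply_of_ne _ _ _ _ _ h.symm]

theorem XaX (m : M5) {a l : Fin 5} (b : Fin 5) (h : l ≠ a) :
    ((1 + single a b 1 : M5) * m * (1 + single a b 1 : M5)ᵀ) a l = m a l + m b l := by
  simp [Matrix.mul_add, Matrix.add_mul, transpose_single, mul_single_apply_of_ne _ _ _ _ _ h,
    h.symm]

/-- A zero row of `g z gᵀ` is a zero row of `g z`. -/
theorem rowz (n : N0) (z : M5) (k : Fin 5) (h : ∀ l, (n.g.1 * z * n.g.1ᵀ) k l = 0) (l : Fin 5) :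
    (n.g.1 * z) k l = 0 := by
  have e : n.g.1 * z = n.g.1 * z * n.g.1ᵀ * (n.g⁻¹).1ᵀ := by
    rw [Matrix.mul_assoc (n.g.1 * z), ← transpose_mul, hg, transpose_one, Matrix.mul_one]
  rw [e, mul_apply]
  exact Finset.sum_eq_zero fun j _ => by rw [h j, zero_mul]

theorem conj_a (n z : N0) (hz : z.g = 1) : (n * z * n⁻¹).a = n.g.1 * z.a * n.g.1ᵀ := by
  have e : (n * z * n⁻¹) * n = n * z := by group
  have e2 : (n * z * n⁻¹).g = 1 := by simp [hz]
  have e3 := congrArg N0.a e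
  rw [mul_a (n * z * n⁻¹), e2, mul_a n z] at e3
  have e4 : ((1 : SL5).1 : M5) = 1 := rfl
  rw [e4, transpose_one, Matrix.one_mul, Matrix.mul_one, add_comm n.a] at e3
  exact add_right_cancel e3

theorem czz {n : N0} {i j : ℕ} (hij : ix i ≠ ix j) (h : zz i j * n = n * zz i j) (k : Fin 5)
    (h1 : k ≠ ix i) (h2 : k ≠ ix j) : n.g.1 k (ix i) = 0 ∧ n.g.1 k (ix j) = 0 := by
  have e : n * zz i j * n⁻¹ = zz i j := by rw [← h]; group
  have e2 := conj_a n (zz i j) rfl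
  rw [e] at e2
  have r := rowz n (zz i j).a k (fun l => by
    rw [← e2, zz_a]; simp [h1.symm, h2.symm])
  refine ⟨?_, ?_⟩
  · exact (mulZ n.g.1 hij k).symm.trans (r _)
  · rw [zz_symm] at r
    exact (mulZ n.g.1 hij.symm k).symm.trans (r _)

theorem cxx {n : N0} {i j : ℕ} (hij : ix i ≠ ix j) (h : xx i j * n = n * xx i j) (l : Fin 5)
    (h1 : l ≠ ix i) : n.a (ix j) l = 0 := by
  have e := congrFun (congrFun (congrArg N0.a h) (ix i)) l
  rw [mul_a, mul_a, xx_a, Xv hij, zero_add, XaX _ _ h1] at e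
  simpa using e

end Cfsg.Agent.H91.LpNrmA
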