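/-
`A''` in coordinates, and the easy inclusions into normalisers in the model `2 ^ 10 : L₅(2)`.
-/
import Cfsg.Agent.H91.LpNrmA

set_option autoImplicit false
set_option maxRecDepth 100000

namespace Cfsg.Agent.H91.LpNrmB

open Cfsg Subgroup Matrix Cfsg.Agent.H17.LP Cfsg.Agent.H91.LpNrmA

/-- The entries of an element of `J`. -/
theorem J_g {n : N0} (h : n ∈ J0) : ∀ i j : Fin 5, (j ≠ 4 ∨ i = 4) → n.g.1 i j = (1 : M5) i j :=
  fun i j e => (mem_Pat.1 h).2 i j (by revert i j; decide)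

theorem J_mul_g {x y : N0} (hx : x ∈ J0) (hy : y ∈ J0) (i : Fin 5) (hi : i ≠ 4) :
    (x * y).g.1 i 4 = x.g.1 i 4 + y.g.1 i 4 := by
  have h1 := J_g hx
  have h2 := J_g hy 4 4 (Or.inr rfl)
  rw [mul_g, coe_mul', mul_apply, Fin.sum_univ_five, h1 i 0 (by simp), h1 i 1 (by simp),
    h1 i 2 (by simp), h1 i 3 (by simp), h2]
  fin_cases i <;> simp [one_apply, add_comm] at hi ⊢

theorem J_mul_a {x y : N0} (hx : x ∈ J0) (i : Fin 5) (hi : i ≠ 4) :
    (x * y).a i 4 = x.a i 4 + y.a i 4 := by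
  have h1 := J_g hx
  have h2 := y.alt.2 4
  rw [mul_a, Matrix.add_apply, mul_apply, Fin.sum_univ_five]
  simp only [transpose_apply, h1 4 _ (Or.inr rfl), mul_apply, Fin.sum_univ_five,
    h1 i 0 (by simp), h1 i 1 (by simp), h1 i 2 (by simp), h1 i 3 (by simp), h2]
  fin_cases i <;> simp [one_apply] at hi ⊢

/-- `A''` in coordinates. -/
def App2 : Subgroup N0 := ofSubmonoid
  { carrier := {n | n ∈ J0 ∧ ∀ i : Fin 5, i ≠ 4 → n.a i 4 = n.g.1 i 4}
    one_mem' := ⟨J0.one_mem, by decide⟩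
    mul_mem' := by
      rintro x y ⟨h1, h2⟩ ⟨h3, h4⟩
      exact ⟨J0.mul_mem h1 h3, fun i hi => by rw [J_mul_a h1 i hi, J_mul_g h1 h3 i hi, h2 i hi, h4 i hi]⟩ }

theorem mem_App2 {n : N0} : n ∈ App2 ↔ n ∈ J0 ∧ ∀ i : Fin 5, i ≠ 4 → n.a i 4 = n.g.1 i 4 := Iff.rfl

/-- `x_{h5} z_{h5}` or `1`. -/
def yy (h : ℕ) (v : F) : N0 := if v = 0 then 1 else xx h 5 * zz h 5

theorem yy_mem (h : ℕ) (hh : h ∈ [1, 2, 3, 4]) (v : F) : yy h v ∈ App := by
  unfold yy
  split_ifs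
  · exact one_mem _
  · exact mem_sup_right (subset_closure ⟨h, hh, rfl⟩)

theorem yy_g : ∀ a b c d : F, (yy 1 a * yy 2 b * yy 3 c * yy 4 d).g.1 0 4 = a ∧
    (yy 1 a * yy 2 b * yy 3 c * yy 4 d).g.1 1 4 = b ∧ (yy 1 a * yy 2 b * yy 3 c * yy 4 d).g.1 2 4 = c ∧
    (yy 1 a * yy 2 b * yy 3 c * yy 4 d).g.1 3 4 = d := by decide +kernel

theorem App_le : App ≤ App2 := by
  refine sup_le (fun n hn => ?_) ((closure_le _).2 ?_)
  · have h := mem_Pat.1 hn
    refine ⟨pat_mono (by decide) (by decide) hn, fun i hi => ?_⟩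
    rw [h.1 i 4 (by simp), h.2 i 4 rfl, one_apply_ne hi]
  · rintro n ⟨h, hh, rfl⟩
    rw [SetLike.mem_coe, mem_App2]
    unfold J0
    revert h; decide +kernel

theorem App_eq : App = App2 := by
  refine le_antisymm App_le fun n hn => ?_
  set m := yy 1 (n.g.1 0 4) * yy 2 (n.g.1 1 4) * yy 3 (n.g.1 2 4) * yy 4 (n.g.1 3 4) with hm
  have m1 : m ∈ App := mul_mem (mul_mem (mul_mem (yy_mem 1 (by simp) _) (yy_mem 2 (by simp) _))
    (yy_mem 3 (by simp) _)) (yy_mem 4 (by simp) _)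
  have m2 := App_le m1
  have p := App2.mul_mem hn m2
  have e : ∀ i : Fin 5, i ≠ 4 → (n * m).g.1 i 4 = 0 := fun i hi => by
    have q := yy_g (n.g.1 0 4) (n.g.1 1 4) (n.g.1 2 4) (n.g.1 3 4)
    rw [← hm] at q
    rw [J_mul_g hn.1 m2.1 i hi]
    fin_cases i
    · exact (congrArg _ q.1).trans (two_F _)
    · exact (congrArg _ q.2.1).trans (two_F _)
    · exact (congrArg _ q.2.2.1).trans (two_F _)
    · exact (congrArg _ q.2.2.2).trans (two_F _)
    · exact absurd rfl hi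
  have z : n * m ∈ Z6 := by
    have z4 : ∀ i, (n * m).a i 4 = 0 := fun i => by
      by_cases hi : i = 4
      · rw [hi]; exact (n * m).alt.2 4
      · rw [p.2 i hi, e i hi]
    refine mem_Pat.2 ⟨fun i j c => ?_, fun i j _ => ?_⟩
    · have : i = 4 ∨ j = 4 := by revert i j; decide
      rcases this with rfl | rfl
      · rw [(n * m).alt.symm]; exact z4 _
      · exact z4 _
    · by_cases c : j ≠ 4 ∨ i = 4
      · exact J_g p.1 i j c
      · push Not at c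
        rw [c.1, e i c.2, one_apply_ne c.2]
  have : n = n * m * m⁻¹ := by group
  rw [this]
  exact mul_mem (mem_sup_left z) (inv_mem m1)

theorem mem_App {n : N0} : n ∈ App ↔ n ∈ J0 ∧ ∀ i : Fin 5, i ≠ 4 → n.a i 4 = n.g.1 i 4 := by
  rw [App_eq]; rfl

theorem sub_of_list {L : List N0} {H : Subgroup N0} (h : ∀ x ∈ L, x ∈ H) {s : Set N0}
    (hs : ∀ x ∈ s, x ∈ L) : closure s ≤ H := (closure_le _).2 fun x hx => h x (hs x hx)

theorem A0_le (g : GenStmt) {H : Subgroup N0} (h : ∀ p ∈ prs, zz p.1 p.2 ∈ H) : A0 ≤ H :=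
  gen1 g (by decide) H (fun p hp _ => h p hp) (fun p _ e => by simp at e)

theorem K0_le (g : GenStmt) : K0 ≤ normalizer (U0 : Set N0) := by
  rw [g.2.2.2.1]
  refine sup_le (fun n hn => ?_) (sub_of_list (L := [xx 1 2, xx 2 1, xx 2 3, xx 3 2, xx 3 4, xx 4 5, xx 5 4])
    (fun x hx => nrm_pat g (by decide) ?_) (by simp))
  · refine centralizer_le_normalizer _ fun u hu => A0_comm (pat_mono (by decide) (by decide) hu) hn
  · revert x; decide +kernel

theorem N1_Ap (g : GenStmt) : N1 ≤ normalizer (Ap : Set N0) := by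
  rw [g.2.2.2.2.1]
  refine sup_le (A0_le g fun p hp => nrm_pat g (by decide) ?_)
    (sub_of_list (L := [xx 1 2, xx 2 1, xx 2 3, xx 3 2, xx 3 4, xx 4 3, xx 4 5])
    (fun x hx => nrm_pat g (by decide) ?_) (by simp))
  · revert p; decide +kernel
  · revert x; decide +kernel

theorem N1_J0 (g : GenStmt) : N1 ≤ normalizer (J0 : Set N0) := by
  rw [g.2.2.2.2.1]
  refine sup_le (le_trans (pat_mono (by decide) (by decide) : A0 ≤ J0) le_normalizer)
    (sub_of_list (L := [xx 1 2, xx 2 1, xx 2 3, xx 3 2, xx 3 4, xx 4 3, xx 4 5])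
    (fun x hx => nrm_pat g (by decide) ?_) (by simp))
  revert x; decide +kernel

theorem App_le_of (g : GenStmt) {H : Subgroup N0} (hz : ∀ p ∈ prs, p.2 ≤ 4 → zz p.1 p.2 ∈ H)
    (hy : ∀ h ∈ [1, 2, 3, 4], xx h 5 * zz h 5 ∈ H) : App ≤ H := by
  refine sup_le (gen1 g (by decide) H (fun p hp e => hz p hp ?_) (fun p _ e => by simp at e))
    ((closure_le _).2 ?_)
  · simp at e; exact e.2
  · rintro n ⟨h, hh, rfl⟩; exact hy h hh

/-- Decidable membership in `A''`. -/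
def InApp (n : N0) : Prop := n ∈ Pat (fun _ _ => true) (fun i j => i ≤ 4 ∧ j = 5) ∧
  ∀ i : Fin 5, i ≠ 4 → n.a i 4 = n.g.1 i 4

instance (n : N0) : Decidable (InApp n) := by unfold InApp; infer_instance

theorem nrm_App (g : GenStmt) {x : N0} (hx : x * x = 1 ∧ (∀ p ∈ prs, p.2 ≤ 4 → InApp (x * zz p.1 p.2 * x)) ∧
    ∀ h ∈ [1, 2, 3, 4], InApp (x * (xx h 5 * zz h 5) * x)) : x ∈ normalizer (App : Set N0) :=
  mem_nrm (App_le_of g (fun p hp e => mem_cj hx.1 (mem_App.2 (hx.2.1 p hp e)))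
    (fun h hh => mem_cj hx.1 (mem_App.2 (hx.2.2 h hh))))

theorem N1_App (g : GenStmt) : N1 ≤ normalizer (App : Set N0) := by
  rw [g.2.2.2.2.1]
  refine sup_le (A0_le g fun p hp => nrm_App g ?_)
    (sub_of_list (L := [xx 1 2, xx 2 1, xx 2 3, xx 3 2, xx 3 4, xx 4 3, xx 4 5])
    (fun x hx => nrm_App g ?_) (by simp))
  · revert p; decide +kernel
  · revert x; decide +kernel

end Cfsg.Agent.H91.LpNrmB
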