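/-
Normalisers and centralisers in the model `2 ^ 10 : L₅(2)`: the entrywise inclusions.
-/
import Cfsg.Agent.H91.LpNrmA

set_option autoImplicit false
set_option maxRecDepth 100000

namespace Cfsg.Agent.H91.LpNrmC

open Cfsg Subgroup Matrix Cfsg.Agent.H17.LP Cfsg.Agent.H91.LpNrmA

theorem cj_mem {n s : N0} {Y : Subgroup N0} (hn : n ∈ normalizer (Y : Set N0)) (hs : s ∈ Y) :
    n * s * n⁻¹ ∈ Y := (mem_normalizer_iff.1 hn s).1 hs

theorem U0_le : normalizer (U0 : Set N0) ≤ K0 := fun n hn => by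
  have key : ∀ i j : ℕ, zz i j ∈ U0 → ix i ≠ ix j → ∀ k : Fin 5, 3 ≤ (k : ℕ) → n.g.1 k (ix i) = 0 :=
    fun i j hz hij k hk => by
      have c := (mem_Pat.1 (cj_mem hn hz)).1 k
      rw [conj_a n _ rfl] at c
      exact (mulZ n.g.1 hij k).symm.trans (rowz n _ k (fun l => c l (by simp; omega)) _)
  have h1 := key 1 2 (by unfold U0; decide) (by decide)
  have h2 := key 2 1 (by unfold U0; decide) (by decide)
  have h3 := key 3 1 (by unfold U0; decide) (by decide)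
  refine mem_Pat.2 ⟨fun i j e => by simp at e, fun i j e => ?_⟩
  have e' : 3 ≤ (i : ℕ) ∧ (j = ix 1 ∨ j = ix 2 ∨ j = ix 3) ∧ i ≠ j := by revert i j; decide
  rw [one_apply_ne e'.2.2]
  rcases e'.2.1 with rfl | rfl | rfl
  exacts [h1 i e'.1, h2 i e'.1, h3 i e'.1]

/-- `g X = w g`, entry `(k, k)`. -/
theorem step {n s : N0} {i j : ℕ} (hij : ix i ≠ ix j) (hs : s.g = (xx i j).g)
    (h : ((n * s * n⁻¹).g.1 * n.g.1) (ix j) (ix j) = n.g.1 (ix j) (ix j)) : n.g.1 (ix j) (ix i) = 0 := by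
  have e : (n * s * n⁻¹).g.1 * n.g.1 = n.g.1 * (xx i j).g.1 := by
    rw [← coe_mul', ← coe_mul', ← hs, ← mul_g, ← mul_g, inv_mul_cancel_right]
  rw [e, Xv hij, mulX] at h
  simpa using h

theorem N1_row {n : N0} (h : n ∈ N1) (j : Fin 5) : n.g.1 4 j = (1 : M5) 4 j :=
  (mem_Pat.1 h).2 4 j (by simp)

theorem mem_N1 {n : N0} (h : ∀ j, j ≠ 4 → n.g.1 4 j = 0) : n ∈ N1 := by
  refine mem_Pat.2 ⟨fun i j e => by simp at e, fun i j e => ?_⟩
  have : i = 4 := by revert i; decide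
  subst this
  by_cases c : j = 4
  · rw [c, rowd n 4 h, one_apply_eq]
  · rw [h j c, one_apply_ne (Ne.symm c)]

theorem le_N1 {Y : Subgroup N0} (hY : Y ≤ N1) (hs : ∀ h ∈ [1, 2, 3, 4], ∃ s ∈ Y, s.g = (xx h 5).g) :
    normalizer (Y : Set N0) ≤ N1 := fun n hn => by
  have key : ∀ h ∈ [1, 2, 3, 4], n.g.1 4 (ix h) = 0 := fun h hh => by
    obtain ⟨s, s1, s2⟩ := hs h hh
    have r := N1_row (hY (cj_mem hn s1))
    refine step (j := 5) (by clear s2; revert h; decide) s2 ?_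
    show ((n * s * n⁻¹).g.1 * n.g.1) 4 4 = n.g.1 4 4
    rw [mul_apply, Fin.sum_univ_five, r, r, r, r, r]
    simp
  refine mem_N1 fun j hj => ?_
  have : ∃ h ∈ [1, 2, 3, 4], j = ix h := by revert j; decide
  obtain ⟨h, hh, rfl⟩ := this
  exact key h hh

theorem T_g {n : N0} (h : n ∈ T0) (i j : Fin 5) (e : j ≤ i) : n.g.1 i j = (1 : M5) i j :=
  (mem_Pat.1 h).2 i j (by simpa using e)

theorem T_low {n : N0} (hn : n ∈ normalizer (T0 : Set N0)) (i j : Fin 5) (e : j < i) : n.g.1 i j = 0 := by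
  have key : ∀ i : Fin 5, (∀ k, i < k → n.g.1 k i = 0) → ∀ j, j < i → n.g.1 i j = 0 := fun i hi j hj => by
    have e1 : ∀ i : Fin 5, ix (i + 1) = i := by decide
    have m : xx (j + 1) (i + 1) ∈ T0 := by
      unfold T0; clear hi; revert i j; decide +kernel
    have r := T_g (cj_mem hn m) i
    have := step (n := n) (s := xx (j + 1) (i + 1)) (i := j + 1) (j := i + 1)
      (by rw [e1, e1]; exact hj.ne) rfl (by
        rw [e1, mul_apply, Finset.sum_eq_single i, r i le_rfl, one_apply_eq, one_mul]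
        · intro k _ hk
          rcases lt_or_gt_of_ne hk with c | c
          · rw [r k c.le, one_apply_ne (Ne.symm hk), zero_mul]
          · rw [hi k c, mul_zero]
        · simp)
    rwa [e1, e1] at this
  have h4 := key 4 (fun k hk => absurd hk (by revert k; decide))
  have h3 := key 3 (fun k hk => by
    have : k = 4 := by revert k; decide
    rw [this]; exact h4 _ (by decide))
  have h2 := key 2 (fun k hk => by
    have : k = 4 ∨ k = 3 := by revert k; decide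
    rcases this with rfl | rfl
    exacts [h4 _ (by decide), h3 _ (by decide)])
  have h1 := key 1 (fun k hk => by
    have : k = 4 ∨ k = 3 ∨ k = 2 := by revert k; decide
    rcases this with rfl | rfl | rfl
    exacts [h4 _ (by decide), h3 _ (by decide), h2 _ (by decide)])
  have : i = 4 ∨ i = 3 ∨ i = 2 ∨ i = 1 := by revert i j; decide
  rcases this with rfl | rfl | rfl | rfl
  exacts [h4 _ e, h3 _ e, h2 _ e, h1 _ e]

theorem T0_le : normalizer (T0 : Set N0) ≤ T0 := fun n hn => by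
  refine mem_Pat.2 ⟨fun i j e => by simp at e, fun i j e => ?_⟩
  have e' : j ≤ i := by simpa using e
  rcases e'.lt_or_eq with c | rfl
  · rw [T_low hn i j c, one_apply_ne c.ne']
  · have q := congrFun (congrFun (gh n) j) j
    have h2 := T_low (inv_mem hn)
    rw [mul_apply, Finset.sum_eq_single j, one_apply_eq] at q
    · rw [one_apply_eq]; exact (one_of_mul _ _ q).1
    · intro k _ hk
      rcases lt_or_gt_of_ne hk with c | c
      · rw [T_low hn j k c, zero_mul]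
      · have := h2 k j c
        rw [inv_g] at this
        rw [this, mul_zero]
    · simp

theorem ix1 : ∀ i : Fin 5, ix (i + 1) = i := by decide

/-- `czz` with indices in `Fin 5`. -/
theorem czf {n : N0} {Y : Subgroup N0} (hn : n ∈ centralizer (Y : Set N0)) (i j k : Fin 5)
    (h : zz (i + 1) (j + 1) ∈ Y) (hij : i ≠ j ∧ k ≠ i ∧ k ≠ j) : n.g.1 k i = 0 := by
  have := (czz (n := n) (i := i + 1) (j := j + 1) (by rw [ix1, ix1]; exact hij.1) (hn _ h) k
    (by rw [ix1]; exact hij.2.1) (by rw [ix1]; exact hij.2.2)).1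
  rwa [ix1] at this

theorem cxf {n : N0} {Y : Subgroup N0} (hn : n ∈ centralizer (Y : Set N0)) (i j l : Fin 5)
    (h : xx (i + 1) (j + 1) ∈ Y) (hij : i ≠ j ∧ l ≠ i) : n.a j l = 0 := by
  have := cxx (n := n) (i := i + 1) (j := j + 1) (by rw [ix1, ix1]; exact hij.1) (hn _ h) l
    (by rw [ix1]; exact hij.2)
  rwa [ix1] at this

theorem CA1_le : centralizer (A1 : Set N0) ≤ A0 := fun n hn => by
  have key : ∀ k i : Fin 5, k ≠ i → n.g.1 k i = 0 := fun k i hk => by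
    have : ∃ j : Fin 5, zz (i + 1) (j + 1) ∈ A1 ∧ i ≠ j ∧ k ≠ i ∧ k ≠ j := by
      unfold A1; revert k i; decide +kernel
    obtain ⟨j, h1, h2⟩ := this
    exact czf hn i j k h1 h2
  refine mem_Pat.2 ⟨fun i j e => by simp at e, fun i j _ => ?_⟩
  by_cases c : i = j
  · rw [c, rowd n j (key j · ·.symm), one_apply_eq]
  · rw [key i j c, one_apply_ne c]

theorem CZ6_le : centralizer (Z6 : Set N0) ≤ J0 := fun n hn => by
  have key : ∀ k i : Fin 5, i ≠ 4 → k ≠ i → n.g.1 k i = 0 := fun k i hi hk => by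
    have : ∃ j : Fin 5, zz (i + 1) (j + 1) ∈ Z6 ∧ i ≠ j ∧ k ≠ i ∧ k ≠ j := by
      unfold Z6; revert k i; decide +kernel
    obtain ⟨j, h1, h2⟩ := this
    exact czf hn i j k h1 h2
  refine mem_Pat.2 ⟨fun i j e => by simp at e, fun i j e => ?_⟩
  by_cases c : j = 4
  · have : i = 4 := by revert i j; decide
    rw [c, this, rowd n 4 (fun j hj => key 4 j hj hj.symm), one_apply_eq]
  · by_cases d : i = j
    · rw [d, cold n j (key · j c), one_apply_eq]
    · rw [key i j c d, one_apply_ne d]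

theorem CAp_le : centralizer (Ap : Set N0) ≤ Ap := fun n hn => by
  have h1 := CZ6_le (centralizer_le (pat_mono (by decide) (by decide) : Z6 ≤ Ap) hn)
  have key : ∀ l : Fin 5, n.a 4 l = 0 := fun l => by
    have : ∃ i : Fin 5, xx (i + 1) ((4 : Fin 5) + 1) ∈ Ap ∧ i ≠ 4 ∧ l ≠ i := by
      unfold Ap; revert l; decide +kernel
    obtain ⟨i, h1, h2⟩ := this
    exact cxf hn i 4 l h1 h2
  refine mem_Pat.2 ⟨fun i j e => ?_, (mem_Pat.1 h1).2⟩
  have : i = 4 ∨ j = 4 := by revert i j; decide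
  rcases this with rfl | rfl
  · exact key _
  · rw [n.alt.symm]; exact key _

theorem CQ0_le : centralizer (Q0 : Set N0) ≤ Z0 := fun n hn => by
  have h1 := CA1_le (centralizer_le (pat_mono (by decide) (by decide) : A1 ≤ Q0) hn)
  have key : ∀ j l : Fin 5, 2 ≤ (j : ℕ) → n.a j l = 0 := fun j l hj => by
    have : ∃ i : Fin 5, xx (i + 1) (j + 1) ∈ Q0 ∧ i ≠ j ∧ l ≠ i := by
      unfold Q0; revert j l; decide +kernel
    obtain ⟨i, h1, h2⟩ := this
    exact cxf hn i j l h1 h2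
  refine mem_Pat.2 ⟨fun i j e => ?_, (mem_Pat.1 h1).2⟩
  have : 2 ≤ (i : ℕ) ∨ 2 ≤ (j : ℕ) := by revert i j; decide
  rcases this with c | c
  · exact key _ _ c
  · rw [n.alt.symm]; exact key _ _ c

theorem QA_g {n : N0} (h : n ∈ QA) (i j : Fin 5) (e : 2 ≤ (i : ℕ) ∨ (j : ℕ) < 2) :
    n.g.1 i j = (1 : M5) i j :=
  (mem_Pat.1 h).2 i j (by revert i j; decide)

theorem QA_mul_a {x : N0} (hx : x ∈ QA) (y : N0) (i j : Fin 5) (hi : 2 ≤ (i : ℕ)) (hj : 2 ≤ (j : ℕ)) :
    (x * y).a i j = x.a i j + y.a i j := by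
  rw [mul_a, Matrix.add_apply, mul_apply]
  simp only [transpose_apply, mul_apply, QA_g hx i _ (Or.inl hi), QA_g hx j _ (Or.inl hj)]
  simp [one_apply]

theorem QA_mul_g {x y : N0} (hx : x ∈ QA) (hy : y ∈ QA) (i j : Fin 5) (hi : (i : ℕ) < 2)
    (hj : 2 ≤ (j : ℕ)) : (x * y).g.1 i j = x.g.1 i j + y.g.1 i j := by
  rw [mul_g, coe_mul', mul_apply, Fin.sum_univ_five, QA_g hx i 0 (by simp), QA_g hx i 1 (by simp),
    QA_g hy 2 j (by simp), QA_g hy 3 j (by simp), QA_g hy 4 j (by simp)]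
  fin_cases i <;> fin_cases j <;> simp [one_apply, add_comm] at hi hj ⊢

theorem comm_QA_le : ⁅QA, QA⁆ ≤ A1 := by
  rw [commutator_le]
  intro x hx y hy
  rw [commutatorElement_def]
  have hc : x * y * x⁻¹ * y⁻¹ ∈ QA := mul_mem (mul_mem (mul_mem hx hy) (inv_mem hx)) (inv_mem hy)
  have e : x * y * x⁻¹ * y⁻¹ * (y * x) = x * y := by group
  generalize x * y * x⁻¹ * y⁻¹ = w at hc e ⊢
  have f : ∀ a b c : F, a + (b + c) = c + b → a = 0 := by decide
  refine mem_Pat.2 ⟨fun i j c => ?_, fun i j _ => ?_⟩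
  · have hij : 2 ≤ (i : ℕ) ∧ 2 ≤ (j : ℕ) := by revert i j; decide
    have q := QA_mul_a hc (y * x) i j hij.1 hij.2
    rw [e, QA_mul_a hx y i j hij.1 hij.2, QA_mul_a hy x i j hij.1 hij.2] at q
    exact f _ _ _ q.symm
  · by_cases c : 2 ≤ (i : ℕ) ∨ (j : ℕ) < 2
    · exact QA_g hc i j c
    · push Not at c
      have q := QA_mul_g hc (mul_mem hy hx) i j c.1 c.2
      rw [e, QA_mul_g hx hy i j c.1 c.2, QA_mul_g hy hx i j c.1 c.2] at q
      rw [f _ _ _ q.symm, one_apply_ne (by rintro rfl; omega)]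

theorem V0_of (v : N0) (hv : v ∈ Q0) (h : ∀ s ∈ T0, s * v * s⁻¹ * v⁻¹ ∈ Z0) : v ∈ V0 := by
  have hq : v ∈ QA := pat_mono (by decide) (by decide) hv
  have key : ∀ s ∈ T0, ∀ k l : Fin 5, 2 ≤ (l : ℕ) → (s * v).a k l = (v * s).a k l := fun s hs k l hl => by
    have c := mem_Pat.1 (h s hs)
    have c1 : (s * v * s⁻¹ * v⁻¹).g = 1 := Subtype.ext (by ext i j; exact c.2 i j rfl)
    have e : s * v = (s * v * s⁻¹ * v⁻¹) * (v * s) := by group
    have e4 : ((1 : SL5).1 : M5) = 1 := rfl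
    rw [e, mul_a (s * v * s⁻¹ * v⁻¹), c1, e4, transpose_one, Matrix.one_mul, Matrix.mul_one,
      Matrix.add_apply, c.1 k l (by simp; omega), zero_add]
  have g1 : ∀ i j : Fin 5, (i : ℕ) < 2 → 2 ≤ (j : ℕ) → v.g.1 i j = 0 := fun i j hi hj => by
    have : ∃ l : Fin 5, zz (j + 1) (l + 1) ∈ T0 ∧ 2 ≤ (l : ℕ) ∧ j ≠ l ∧ (zz (j + 1) (l + 1)).a i l = 0 := by
      unfold T0; revert i j; decide +kernel
    obtain ⟨l, h1, h2, h3, h4⟩ := this
    have q := key _ h1 i l h2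
    have e4 : ((1 : SL5).1 : M5) = 1 := rfl
    rw [mul_a, mul_a, zz_g, e4, transpose_one, Matrix.one_mul, Matrix.mul_one, Matrix.add_apply, h4,
      zero_add, Matrix.add_apply, mul_apply] at q
    simp only [transpose_apply, QA_g hq l _ (Or.inl h2)] at q
    rw [zz_a, ix1, ix1] at q
    have m := mulZ v.g.1 h3 i
    simp only [one_apply, mul_ite, mul_one, mul_zero, Finset.sum_ite_eq, Finset.mem_univ, if_true] at q
    rw [m] at q
    simpa using q
  have g2 : v.g = 1 := Subtype.ext (by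
    ext i j
    by_cases c : 2 ≤ (i : ℕ) ∨ (j : ℕ) < 2
    · exact QA_g hq i j c
    · push Not at c
      rw [g1 i j c.1 c.2]
      exact (one_apply_ne (by rintro rfl; omega)).symm)
  have a1 : ∀ i j l : Fin 5, i < j → l ≠ i → 2 ≤ (l : ℕ) → v.a j l = 0 := fun i j l hij hl h2 => by
    have m : xx (i + 1) (j + 1) ∈ T0 := by
      unfold T0; clear hl; revert i j; decide +kernel
    have q := key _ m i l h2
    rw [mul_a, mul_a, xx_a, Xv (by rw [ix1, ix1]; exact hij.ne), ix1, ix1, zero_add, XaX _ _ hl] at q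
    simpa using q
  have a2 : ∀ j l : Fin 5, 3 ≤ (l : ℕ) → (j : ℕ) = 0 → v.a j l = 0 := fun j l hl hj => by
    have m : xx ((2 : Fin 5) + 1) (l + 1) ∈ T0 := by
      unfold T0; revert l; decide +kernel
    have q := key _ m j 2 (by decide)
    rw [(_ : N0).alt.symm j 2, (v * _).alt.symm j 2, mul_a, mul_a, xx_a,
      Xv (by rw [ix1, ix1]; rintro rfl; simp at hl), ix1, ix1, zero_add,
      XaX _ _ (by rintro rfl; simp at hj)] at q
    rw [v.alt.symm]
    simpa using q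
  refine mem_Pat.2 ⟨fun i j e => ?_, fun i j _ => by rw [g2]; rfl⟩
  have : (1 ≤ (i : ℕ) ∧ 2 ≤ (j : ℕ)) ∨ (1 ≤ (j : ℕ) ∧ 2 ≤ (i : ℕ)) ∨ i = j ∨ (3 ≤ (j : ℕ) ∧ (i : ℕ) = 0) ∨
      (3 ≤ (i : ℕ) ∧ (j : ℕ) = 0) := by revert i j; decide
  rcases this with c | c | rfl | c | c
  · exact a1 0 i j c.1 (by rintro rfl; simp at c) c.2
  · rw [v.alt.symm]; exact a1 0 j i c.1 (by rintro rfl; simp at c) c.2
  · exact v.alt.2 i
  · exact a2 i j c.1 c.2
  · rw [v.alt.symm]; exact a2 j i c.1 c.2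

end Cfsg.Agent.H91.LpNrmC
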