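/-
Normalisers and centralisers in the model `2 ^ 10 : L₅(2)`.
-/
import Cfsg.Agent.H91.LpNrmB
import Cfsg.Agent.H91.LpNrmC

set_option autoImplicit false
set_option maxRecDepth 100000
set_option synthInstance.maxSize 4096

namespace Cfsg.Agent.H91.LpNrm

open Cfsg Subgroup Matrix Cfsg.Agent.H17.LP Cfsg.Agent.H91.LpNrmA Cfsg.Agent.H91.LpNrmB
  Cfsg.Agent.H91.LpNrmC

theorem J_sq_a {n : N0} (h : n ∈ J0) (k l : Fin 5) (hk : k ≠ 4) (hl : l ≠ 4) :
    (n * n).a k l = n.g.1 k 4 * n.a l 4 + n.a k 4 * n.g.1 l 4 := by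
  have h1 := J_g h
  have h2 := n.alt.2 4
  have h3 := n.alt.symm 4 l
  have f : ∀ a b c : F, a + (a + b + c) = b + c := by decide
  rw [← f (n.a k l), mul_a, Matrix.add_apply, mul_apply, Fin.sum_univ_five, ← h3]
  simp only [transpose_apply, mul_apply, Fin.sum_univ_five,
    h1 k 0 (by simp), h1 k 1 (by simp), h1 k 2 (by simp), h1 k 3 (by simp),
    h1 l 0 (by simp), h1 l 1 (by simp), h1 l 2 (by simp), h1 l 3 (by simp), h2]
  fin_cases k <;> fin_cases l <;> simp [one_apply] at hk hl ⊢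

theorem J_sq {n : N0} (h : n ∈ J0)
    (e : ∀ k l : Fin 5, k ≠ 4 → l ≠ 4 → n.g.1 k 4 * n.a l 4 + n.a k 4 * n.g.1 l 4 = 0) : n * n = 1 := by
  have h2 := J0.mul_mem h h
  have a4 : ∀ i, (n * n).a i 4 = 0 := fun i => by
    by_cases hi : i = 4
    · rw [hi]; exact (n * n).alt.2 4
    · rw [J_mul_a h i hi, two_F]
  refine N0.ext ?_ (Subtype.ext ?_)
  · ext k l
    by_cases hl : l = 4
    · rw [hl]; exact a4 k
    by_cases hk : k = 4
    · rw [hk, (n * n).alt.symm]; exact a4 l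
    rw [J_sq_a h k l hk hl, e k l hk hl]; rfl
  · ext i j
    by_cases c : j ≠ 4 ∨ i = 4
    · exact J_g h2 i j c
    · push Not at c
      rw [c.1, J_mul_g h h i c.2, two_F]
      exact (one_apply_ne c.2).symm

theorem App_sq (n : N0) (h : n ∈ App) : n * n = 1 := by
  rw [mem_App] at h
  refine J_sq h.1 fun k l hk hl => ?_
  rw [h.2 k hk, h.2 l hl, two_F]

theorem Ap_J : Ap ≤ J0 := pat_mono (by decide) (by decide)

theorem Ap_sq (n : N0) (h : n ∈ Ap) : n * n = 1 := by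
  refine J_sq (Ap_J h) fun k l _ _ => ?_
  rw [(mem_Pat.1 h).1 k 4 (by simp), (mem_Pat.1 h).1 l 4 (by simp)]
  simp

theorem le_cent {Y : Subgroup N0} (h : ∀ n ∈ Y, n * n = 1) : Y ≤ centralizer (Y : Set N0) :=
  fun x hx y hy => by
    have e := h _ (Y.mul_mem hy hx)
    have e1 := h x hx
    have e2 := h y hy
    calc y * x = (y * x)⁻¹ := (inv_eq_of_mul_eq_one_right e).symm
      _ = x * y := by rw [_root_.mul_inv_rev, inv_eq_of_mul_eq_one_right e1, inv_eq_of_mul_eq_one_right e2]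

theorem inv_J (n : N0) (h : n ∈ J0) (e : n * n = 1) : n ∈ A0 ∨ n ∈ Ap ∨ n ∈ App := by
  have q : ∀ k l : Fin 5, k ≠ 4 → l ≠ 4 → n.g.1 k 4 * n.a l 4 + n.a k 4 * n.g.1 l 4 = 0 :=
    fun k l hk hl => by rw [← J_sq_a h k l hk hl, e]; rfl
  have f : ∀ u0 u1 u2 u3 v0 v1 v2 v3 : F, v0 * u1 + u0 * v1 = 0 → v0 * u2 + u0 * v2 = 0 →
      v0 * u3 + u0 * v3 = 0 → v1 * u2 + u1 * v2 = 0 → v1 * u3 + u1 * v3 = 0 → v2 * u3 + u2 * v3 = 0 →
      (v0 = 0 ∧ v1 = 0 ∧ v2 = 0 ∧ v3 = 0) ∨ (u0 = 0 ∧ u1 = 0 ∧ u2 = 0 ∧ u3 = 0) ∨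
        (u0 = v0 ∧ u1 = v1 ∧ u2 = v2 ∧ u3 = v3) := by decide +kernel
  have all : ∀ P : Fin 5 → Prop, P 0 ∧ P 1 ∧ P 2 ∧ P 3 → ∀ i, i ≠ 4 → P i := fun P hP i hi => by
    fin_cases i
    exacts [hP.1, hP.2.1, hP.2.2.1, hP.2.2.2, absurd rfl hi]
  rcases f _ _ _ _ _ _ _ _ (q 0 1 (by simp) (by simp)) (q 0 2 (by simp) (by simp))
    (q 0 3 (by simp) (by simp)) (q 1 2 (by simp) (by simp)) (q 1 3 (by simp) (by simp))
    (q 2 3 (by simp) (by simp)) with c | c | c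
  · refine Or.inl (mem_A0.2 (Subtype.ext ?_))
    ext i j
    by_cases d : j ≠ 4 ∨ i = 4
    · exact J_g h i j d
    · push Not at d
      rw [d.1, all (fun i => n.g.1 i 4 = 0) c i d.2]
      exact (one_apply_ne d.2).symm
  · have z4 : ∀ i, n.a i 4 = 0 := fun i => by
      by_cases hi : i = 4
      · rw [hi]; exact n.alt.2 4
      · exact all (fun i => n.a i 4 = 0) c i hi
    refine Or.inr (Or.inl (mem_Pat.2 ⟨fun i j d => ?_, (mem_Pat.1 h).2⟩))
    have : i = 4 ∨ j = 4 := by revert i j; decide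
    rcases this with rfl | rfl
    · rw [n.alt.symm]; exact z4 _
    · exact z4 _
  · exact Or.inr (Or.inr (mem_App.2 ⟨h, all (fun i => n.a i 4 = n.g.1 i 4) c⟩))

theorem CApp_le : centralizer (App : Set N0) ≤ App := fun n hn => by
  have h1 := CZ6_le (centralizer_le (le_sup_left : Z6 ≤ App) hn)
  refine mem_App.2 ⟨h1, fun l hl => ?_⟩
  have : ∃ i : Fin 5, (i : ℕ) + 1 ∈ [1, 2, 3, 4] ∧ i ≠ 4 ∧ l ≠ i ∧
      (xx (i + 1) 5 * zz (i + 1) 5).a = single i 4 1 + single 4 i 1 ∧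
      (xx (i + 1) 5 * zz (i + 1) 5).g.1 = 1 + single i 4 1 := by
    revert l; decide +kernel
  obtain ⟨i, h2, h3, h4, h5, h6⟩ := this
  have c := hn _ (mem_sup_right (subset_closure ⟨_, h2, rfl⟩) : xx (i + 1) 5 * zz (i + 1) 5 ∈ App)
  generalize xx (i + 1) 5 * zz (i + 1) 5 = y at h5 h6 c
  have q := congrFun (congrFun (congrArg N0.a c) i) l
  rw [mul_a, mul_a, h5, h6, Matrix.add_apply, XaX _ _ h4, Matrix.add_apply _ (_ * _), mul_apply,
    Finset.sum_eq_single 4, mulZ _ h3, J_g h1 i i (Or.inl h3), n.alt.symm 4 l] at q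
  · simpa [hl.symm, h3.symm, h4.symm] using q
  · intro k _ hk
    rw [transpose_apply, J_g h1 l k (Or.inl hk)]
    by_cases d : l = k
    · rw [← d]; simp [Matrix.mul_add, mul_single_apply_of_ne _ _ _ _ _ h4, mul_single_apply_of_ne _ _ _ _ _ hl]
    · rw [one_apply_ne d, mul_zero]
  · simp

theorem Z0_le (g : GenStmt) : Z0 ≤ centralizer (T0 : Set N0) :=
  gen1 g (by decide) _ (fun p hp e => by
    have : p = (1, 2) := by revert p; decide
    subst this
    have : T0 ≤ centralizer {zz 1 2} := gen1 g (by decide) _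
      (fun p hp _ => mem_centralizer_singleton_iff.2 (by revert p; decide +kernel))
      (fun p hp _ => mem_centralizer_singleton_iff.2 (by revert p; decide +kernel))
    exact fun t ht => mem_centralizer_singleton_iff.1 (this ht)) (fun p _ e => by simp at e)

theorem le_CU0 (g : GenStmt) : L0 ⊔ closure {zz 4 5, xx 4 5, xx 5 4} ≤ centralizer (U0 : Set N0) := by
  have key : ∀ x : N0, (∀ p ∈ prs, p.2 ≤ 3 → zz p.1 p.2 * x = x * zz p.1 p.2) →
      x ∈ centralizer (U0 : Set N0) := fun x hx u hu => mem_centralizer_singleton_iff.1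
    (gen1 g (by decide) (centralizer {x}) (fun p hp e => mem_centralizer_singleton_iff.2
      (hx p hp (by simp at e; exact e.2))) (fun p _ e => by simp at e) hu)
  refine sup_le (gen1 g (by decide) _ (fun p hp _ => key _ ?_) (fun p hp e => key _ ?_))
    (sub_of_list (L := [zz 4 5, xx 4 5, xx 5 4]) (fun x hx => key _ ?_) (by simp))
  · revert p; decide +kernel
  · revert p; decide +kernel
  · revert x; decide +kernel

/-- `L ⟨z₄₅⟩`. -/
def P0 : Subgroup N0 := Pat (fun _ _ => true) (fun i j => i ≤ 3 ∧ 4 ≤ j)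

theorem CU0_le (g : GenStmt) : centralizer (U0 : Set N0) ≤ L0 ⊔ closure {zz 4 5, xx 4 5, xx 5 4} :=
  fun n hn => by
  have hP : P0 ≤ L0 ⊔ closure {zz 4 5, xx 4 5, xx 5 4} := gen1 g (by decide) _ (fun p hp _ => by
    have : zz p.1 p.2 ∈ L0 ∨ p = (4, 5) := by unfold L0; revert p; decide +kernel
    rcases this with c | rfl
    · exact mem_sup_left c
    · exact mem_sup_right (subset_closure (by simp)))
    (fun p hp e => mem_sup_left (by unfold L0; revert p; decide +kernel))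
  have key : ∀ k i : Fin 5, (i : ℕ) < 3 → k ≠ i → n.g.1 k i = 0 := fun k i hi hk => by
    have : ∃ j : Fin 5, zz (i + 1) (j + 1) ∈ U0 ∧ i ≠ j ∧ k ≠ i ∧ k ≠ j := by
      unfold U0; revert k i; decide +kernel
    obtain ⟨j, h1, h2⟩ := this
    exact czf hn i j k h1 h2
  have col : ∀ k i : Fin 5, (i : ℕ) < 3 → n.g.1 k i = (1 : M5) k i := fun k i hi => by
    by_cases d : k = i
    · rw [d, cold n i (key · i hi), one_apply_eq]
    · rw [key k i hi d, one_apply_ne d]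
  have q : ∀ k l : Fin 5, 3 ≤ (k : ℕ) → ∀ m : M5,
      (n.g.1 * m) k l = n.g.1 k 3 * m 3 l + n.g.1 k 4 * m 4 l := fun k l hk m => by
    rw [mul_apply, Fin.sum_univ_five, key k 0 (by simp) (by rintro rfl; simp at hk),
      key k 1 (by simp) (by rintro rfl; simp at hk), key k 2 (by simp) (by rintro rfl; simp at hk)]
    simp
  have f : ∀ a b c d a' b' c' d' : F, a * a' + b * c' = 1 → a * b' + b * d' = 0 → c * a' + d * c' = 0 →
      c * b' + d * d' = 1 → ∃ m ∈ [1, xx 4 5, xx 5 4, xx 4 5 * xx 5 4, xx 5 4 * xx 4 5,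
        xx 4 5 * xx 5 4 * xx 4 5], m.g.1 3 3 = a' ∧ m.g.1 3 4 = b' ∧ m.g.1 4 3 = c' ∧ m.g.1 4 4 = d' := by
    decide +kernel
  have e33 : n.g.1 3 3 * (n.g⁻¹).1 3 3 + n.g.1 3 4 * (n.g⁻¹).1 4 3 = 1 := by
    rw [← q 3 3 (by simp), gh]; rfl
  have e34 : n.g.1 3 3 * (n.g⁻¹).1 3 4 + n.g.1 3 4 * (n.g⁻¹).1 4 4 = 0 := by
    rw [← q 3 4 (by simp), gh]; rfl
  have e43 : n.g.1 4 3 * (n.g⁻¹).1 3 3 + n.g.1 4 4 * (n.g⁻¹).1 4 3 = 0 := by
    rw [← q 4 3 (by simp), gh]; rfl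
  have e44 : n.g.1 4 3 * (n.g⁻¹).1 3 4 + n.g.1 4 4 * (n.g⁻¹).1 4 4 = 1 := by
    rw [← q 4 4 (by simp), gh]; rfl
  obtain ⟨m, hm, m1, m2, m3, m4⟩ := f _ _ _ _ _ _ _ _ e33 e34 e43 e44
  have mc : ∀ k i : Fin 5, (i : ℕ) < 3 → m.g.1 k i = (1 : M5) k i := fun k i hi => by
    have : m ∈ Pat (fun _ _ => true) (fun _ j => 4 ≤ j) := by
      clear m1 m2 m3 m4; revert m; decide +kernel
    exact (mem_Pat.1 this).2 k i (by simp; omega)
  have ms : m ∈ closure {zz 4 5, xx 4 5, xx 5 4} := by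
    have s1 : xx 4 5 ∈ closure {zz 4 5, xx 4 5, xx 5 4} := subset_closure (by simp)
    have s2 : xx 5 4 ∈ closure {zz 4 5, xx 4 5, xx 5 4} := subset_closure (by simp)
    simp only [List.mem_cons, List.not_mem_nil, or_false] at hm
    rcases hm with rfl | rfl | rfl | rfl | rfl | rfl
    exacts [one_mem _, s1, s2, mul_mem s1 s2, mul_mem s2 s1, mul_mem (mul_mem s1 s2) s1]
  have p : n * m ∈ P0 := by
    refine mem_Pat.2 ⟨fun i j e => by simp at e, fun i j e => ?_⟩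
    rw [mul_g, coe_mul']
    by_cases c : (j : ℕ) < 3
    · rw [mul_apply]
      simp only [mc _ j c, one_apply, mul_ite, mul_one, mul_zero, Finset.sum_ite_eq', Finset.mem_univ,
        if_true]
      exact col i j c
    · have : (i = 3 ∨ i = 4) ∧ (j = 3 ∨ j = 4) := by revert i j; decide
      rcases this with ⟨rfl | rfl, rfl | rfl⟩
      · rw [q _ _ (by simp), m1, m3, e33]; rfl
      · rw [q _ _ (by simp), m2, m4, e34]; rfl
      · rw [q _ _ (by simp), m1, m3, e43]; rfl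
      · rw [q _ _ (by simp), m2, m4, e44]; rfl
  have : n = n * m * m⁻¹ := by group
  rw [this]
  exact mul_mem (hP p) (inv_mem (mem_sup_right ms))

theorem A1_le (g : GenStmt) : A1 ≤ ⁅QA, QA⁆ := gen1 g (by decide) _ (fun p hp e => by
  have : ∃ x ∈ [xx 1 3, xx 1 4, xx 2 3, xx 2 4], ∃ q ∈ prs, x ∈ QA ∧ zz q.1 q.2 ∈ QA ∧
      zz p.1 p.2 * zz q.1 q.2 * x = x * zz q.1 q.2 := by
    unfold QA; revert p; decide +kernel
  obtain ⟨x, -, q, -, h1, h2, h3⟩ := this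
  have c := commutator_mem_commutator h1 h2
  rw [commutatorElement_def, ← h3] at c
  simpa [mul_assoc] using c) (fun p _ e => by simp at e)

theorem nrm (g : GenStmt) (_k : KitStmt) : NrmStmt := by
  have A1A : A1 ≤ A0 := pat_mono (by decide) (by decide)
  have QT : Q0 ≤ T0 := pat_mono (by decide) (by decide)
  have JN : J0 ≤ N1 := pat_mono (by decide) (by decide)
  have AA : A0 ≤ centralizer (A0 : Set N0) := fun x hx y hy => A0_comm hy hx
  have xAp : ∀ h ∈ [1, 2, 3, 4], xx h 5 ∈ Ap := by unfold Ap; decide +kernel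
  refine ⟨le_antisymm U0_le (K0_le g),
    le_antisymm (le_N1 (Ap_J.trans JN) fun h hh => ⟨_, xAp h hh, rfl⟩) (N1_Ap g),
    le_antisymm (le_N1 (fun n hn => JN (mem_App.1 hn).1) fun h hh =>
      ⟨xx h 5 * zz h 5, mem_sup_right (subset_closure ⟨h, hh, rfl⟩), by rw [mul_g, zz_g, mul_one]⟩)
      (N1_App g),
    le_antisymm (le_N1 JN fun h hh => ⟨_, Ap_J (xAp h hh), rfl⟩) (N1_J0 g),
    le_antisymm T0_le le_normalizer,
    le_antisymm ((centralizer_le A1A).trans CA1_le) AA,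
    le_antisymm CA1_le (AA.trans (centralizer_le A1A)),
    le_antisymm CAp_le (le_cent Ap_sq), le_antisymm CApp_le (le_cent App_sq),
    le_antisymm (CU0_le g) (le_CU0 g),
    le_antisymm ((centralizer_le QT).trans CQ0_le) (Z0_le g),
    le_antisymm CQ0_le ((Z0_le g).trans (centralizer_le QT)),
    le_antisymm comm_QA_le (A1_le g), App_sq, inv_J, V0_of, A0_normal⟩

end Cfsg.Agent.H91.LpNrm
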