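import Mathlib
import Cfsg.Agent.H45.OnDefs

/-!
The product of the components at a point.
-/

set_option autoImplicit false

namespace Cfsg.Agent.H91.OnPk

open Cfsg.Agent.H45.On

universe u v

theorem inj_fin {G : Type u} [Group G] (C : Subgroup G → Prop)
    (hz : ∀ M, C M → ∀ c ∈ M, (∀ m ∈ M, c * m = m * c) → c = 1)
    (hc : ∀ M M', C M → C M' → M ≠ M' → Cm M M') (s : Finset (Subgroup G)) :
    (∀ M ∈ s, C M) → ∀ u ∈ s.sup id, (∀ M ∈ s, ∀ m ∈ M, u * m = m * u) → u = 1 := by
  classical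
  induction s using Finset.induction_on with
  | empty => intro _ u hu _; simpa using hu
  | insert M s hM ih =>
    intro hs u hu hcm
    rw [Finset.sup_insert] at hu
    have h1 : s.sup id ≤ Subgroup.centralizer (M : Set G) := Finset.sup_le fun M' hM' b hb =>
      fun a ha => hc M M' (hs M (Finset.mem_insert_self _ _)) (hs M' (Finset.mem_insert_of_mem hM'))
        (fun e => hM (e ▸ hM')) a ha b hb
    have h2 : u ∈ ((M ⊔ s.sup id : Subgroup G) : Set G) := hu
    rw [Subgroup.coe_mul_of_right_le_normalizer_left _ _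
      (h1.trans (Subgroup.centralizer_le_normalizer _))] at h2
    obtain ⟨c, hcM, w, hw, rfl⟩ := h2
    have h3 : c = 1 := hz M (hs M (Finset.mem_insert_self _ _)) c hcM fun m hm => by
      have e1 : c * w * m = m * (c * w) := hcm M (Finset.mem_insert_self _ _) m hm
      have e2 : m * w = w * m := h1 hw m hm
      rw [mul_assoc, ← e2, ← mul_assoc, ← mul_assoc] at e1
      exact mul_right_cancel e1
    subst h3
    refine ih (fun M' hM' => hs M' (Finset.mem_insert_of_mem hM')) _ (by simpa using hw)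
      fun M' hM' => hcm M' (Finset.mem_insert_of_mem hM')

theorem pk (hS : SimStmt.{u}) : PkStmt.{u, v} := by
  intro G Ω _ _ _ _ S
  have hz : ∀ {x M}, S.C x M → ∀ c ∈ M, (∀ m ∈ M, c * m = m * c) → c = 1 := fun h =>
    (hS _ (S.simple h) (S.nab h)).2.2.2.2.2
  have hle : ∀ {x M}, S.C x M → M ≤ S.N x := fun {x M} h =>
    le_iSup (fun M : {M : Subgroup G // S.C x M} => M.1) ⟨M, h⟩
  have hex : ∀ {x M u}, S.C x M → u ∈ S.N x → ∃ c, Pr M u c := fun {x M u} hM hu => by
    refine Subgroup.iSup_induction (C := fun u => ∃ c, Pr M u c) _ hu ?_ ?_ ?_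
    · rintro ⟨M', hM'⟩ a ha
      by_cases e : M' = M
      · subst e
        exact ⟨a, ha, fun _ _ => rfl⟩
      · refine ⟨1, M.one_mem, fun m hm => ?_⟩
        rw [S.comm hM' hM e a ha m hm]
        simp
    · exact ⟨1, M.one_mem, fun _ _ => rfl⟩
    · rintro a b ⟨c, hc, h1⟩ ⟨d, hd, h2⟩
      refine ⟨c * d, M.mul_mem hc hd, fun m hm => ?_⟩
      have h3 := h1 _ (M.mul_mem (M.mul_mem hd hm) (M.inv_mem hd))
      calc a * b * m * (a * b)⁻¹ = a * (b * m * b⁻¹) * a⁻¹ := by group
        _ = c * d * m * (c * d)⁻¹ := by rw [h2 m hm, h3]; group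
  have hcj : ∀ (g : G) x, cj g (S.N x) ≤ S.N (g • x) := fun g x => by
    rw [S0.N, cj, Subgroup.map_iSup]
    exact iSup_le fun M => hle (S.conj g M.2)
  refine ⟨hle, fun x m hm => ?_, fun g x => le_antisymm (hcj g x) ?_, hex, ?_, ?_, ?_, ?_⟩
  · have : S.N x ≤ MulAction.stabilizer G x := iSup_le fun M a ha => S.fx M.2 a ha
    exact this hm
  · have := hcj g⁻¹ (g • x)
    rw [inv_smul_smul] at this
    rw [← cj_cj_inv g (S.N (g • x))]
    exact cj_le.2 this
  · rintro x M u c c' hM ⟨hc, h1⟩ ⟨hc', h2⟩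
    have := hz hM (c'⁻¹ * c) (M.mul_mem (M.inv_mem hc') hc) fun m hm => by
      have e := (h1 m hm).symm.trans (h2 m hm)
      calc c'⁻¹ * c * m = c'⁻¹ * (c * m * c⁻¹) * c := by group
        _ = _ := by rw [e]; group
    exact (inv_mul_eq_one.1 this).symm
  · intro x u hu h
    classical
    have := Fintype.ofFinite (Subgroup G)
    refine inj_fin (S.C x) (fun M hM => hz hM) (fun M M' => S.comm) (Finset.univ.filter (S.C x))
      (fun M hM => (Finset.mem_filter.1 hM).2) u ?_ fun M hM => h M (Finset.mem_filter.1 hM).2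
    have : S.N x ≤ (Finset.univ.filter (S.C x)).sup id := iSup_le fun M =>
      Finset.le_sup (f := id) (Finset.mem_filter.2 ⟨Finset.mem_univ M.1, M.2⟩)
    exact this hu
  · intro x M M' hM hM' hne
    rw [eq_bot_iff]
    intro a ha
    exact hz hM a ha.1 fun m hm => (S.comm hM hM' hne m hm a ha.2).symm
  · intro x M u hM hu
    obtain ⟨c, hc, h1⟩ := hex hM hu
    have h2 : cj u M ≤ M := by
      rintro _ ⟨m, hm, rfl⟩
      change u * m * u⁻¹ ∈ M
      rw [h1 m hm]
      exact M.mul_mem (M.mul_mem hc hm) (M.inv_mem hc)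
    exact Subgroup.eq_of_le_of_card_ge h2 (card_cj u M).ge

end Cfsg.Agent.H91.OnPk
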