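import Cfsg.Agent.H77.SgDefs

/-! The normal closure of the torus is transitive on the non-zero vectors (piece STR). -/

set_option autoImplicit false

namespace Cfsg.Agent.H91.SgStr

open Cfsg.Agent.H77.Sg Module

universe u v

variable {F : Type u} {K : Type v} [Field F] [Field K] [Algebra F K] {n q t R : ℕ}
  {X : Subgroup (K ≃ₗ[F] K)}

theorem Pt_le (h : Ct n q t R X) : Pt F K t ≤ X := by
  rintro _ ⟨s, hs, rfl⟩
  exact (h.mem s).2 ⟨1, s, hs, (one_smul _ _).symm⟩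

theorem gen_mem_SS {g s : K ≃ₗ[F] K} (hg : g ∈ X) (hs : s ∈ Pt F K t) : g * s * g⁻¹ ∈ SS X t :=
  Subgroup.subset_closure ⟨g, hg, s, hs, rfl⟩

theorem SS_le (h : Ct n q t R X) : SS X t ≤ X :=
  (Subgroup.closure_le _).2 (by
    rintro _ ⟨g, hg, s, hs, rfl⟩
    exact mul_mem (mul_mem hg (Pt_le h hs)) (inv_mem hg))

theorem Pt_le_SS : Pt F K t ≤ SS X t := fun s hs => by simpa using gen_mem_SS X.one_mem hs

theorem conj_mem_SS {g j : K ≃ₗ[F] K} (hg : g ∈ X) (hj : j ∈ SS X t) : g * j * g⁻¹ ∈ SS X t := by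
  induction hj using Subgroup.closure_induction with
  | mem j hj =>
    obtain ⟨k, hk, s, hs, rfl⟩ := hj
    rw [show g * (k * s * k⁻¹) * g⁻¹ = g * k * s * (g * k)⁻¹ by group]
    exact gen_mem_SS (mul_mem hg hk) hs
  | one => simp
  | mul a b _ _ ha hb => rw [← conj_mul]; exact mul_mem ha hb
  | inv a _ ha => rw [← conj_inv]; exact inv_mem ha

theorem exists_root [Finite F] [Finite K] (h : Ct n q t R X) {c : F} (hc : c ^ n = 1) :
    ∃ y : K, y ≠ 0 ∧ y ^ q = c • y := by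
  have c0 : c ≠ 0 := ne_zero_pow h.pn.ne_zero (hc ▸ one_ne_zero)
  have q2 : 1 < q := h.hq ▸ Finite.one_lt_card
  have c1 : c ^ (R * t) = 1 := by
    rcases h.hR with ⟨-, h2⟩ | ⟨rfl, -⟩
    · have := Fintype.ofFinite F
      have e := FiniteField.pow_card_sub_one_eq_one c c0
      rw [← Nat.card_eq_fintype_card, h.hq] at e
      have := pow_gcd_eq_one.2 ⟨hc, e⟩
      rw [h2, pow_one] at this
      rw [this, one_pow]
    · rw [pow_mul, hc, one_pow]
  obtain ⟨γ, hγ⟩ := IsCyclic.exists_monoid_generator (α := Kˣ)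
  have o : orderOf γ = (q - 1) * (R * t) := by
    rw [orderOf_eq_card_of_forall_mem_powers hγ, Nat.card_units, h.card]
    simp only [Nat.add_sub_cancel]
    ring
  obtain ⟨k, hk⟩ := hγ (Units.mk0 (algebraMap F K c) ((map_ne_zero _).2 c0))
  have hk : γ ^ k = Units.mk0 (algebraMap F K c) ((map_ne_zero _).2 c0) := hk
  have d : orderOf γ ∣ k * (R * t) := orderOf_dvd_of_pow_eq_one (by
    rw [pow_mul, hk]
    exact Units.ext (by simp [← map_pow, c1]))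
  have p : 0 < R * t := Nat.pos_of_ne_zero fun e => (orderOf_pos γ).ne' (by rw [o, e, mul_zero])
  obtain ⟨m, rfl⟩ := Nat.dvd_of_mul_dvd_mul_right p (o ▸ d)
  refine ⟨(γ ^ m : Kˣ), Units.ne_zero _, ?_⟩
  rw [mul_comm, pow_mul] at hk
  rw [Algebra.smul_def, ← pow_sub_one_mul (by omega), ← Units.val_pow_eq_pow_val, hk,
    Units.val_mk0]

theorem str (kit : KitStmt.{u, v}) (poly : PolyStmt.{u, v}) : StrStmt.{u, v} := by
  intro F K _ _ _ _ _ n q t R X h ⟨g, hg, ng⟩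
  have kt := kit F K (h.hn ▸ h.pn)
  have : Module.Finite F K := Module.Finite.of_finite
  let O : Set K := {x | ∃ c : F, c ^ n = 1 ∧ ∃ j ∈ SS X t, x = c • j 1}
  have o1 : ∀ j ∈ SS X t, ∀ x ∈ O, j x ∈ O := by
    rintro j hj _ ⟨c, hc, k, hk, rfl⟩
    exact ⟨c, hc, j * k, mul_mem hj hk, map_smul j c _⟩
  have o2 : ∀ x, x ≠ 0 → (Algebra.norm F x ∈ Algebra.norm F '' O ↔ x ∈ O) := by
    refine fun x x0 => ⟨?_, fun hx => ⟨x, hx, rfl⟩⟩
    rintro ⟨y, hy, e⟩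
    have n0 : Algebra.norm F x ≠ 0 := Algebra.norm_ne_zero_iff.2 x0
    have y0 : y ≠ 0 := Algebra.norm_ne_zero_iff.1 (e ▸ n0)
    obtain ⟨c, s, hc, hs, e2⟩ := h.ker (Units.mk0 (x / y) (div_ne_zero x0 y0)) (by
      refine mul_right_cancel₀ n0 ?_
      rw [one_mul, Units.val_mk0]
      conv_lhs => rw [← e, ← map_mul, div_mul_cancel₀ _ y0])
    obtain ⟨c', hc', k, hk, e3⟩ := o1 _ (Pt_le_SS (mem_Pt.2 ⟨s, hs, rfl⟩)) y hy
    refine ⟨c * c', by rw [mul_pow, hc, hc', one_mul], k, hk, ?_⟩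
    rw [mul_smul, ← e3, mulH_apply, ← smul_mul_assoc, ← e2, Units.val_mk0, div_mul_cancel₀ _ y0]
  have o3 : ∀ x, x ≠ 0 → x ∈ O := by
    intro x x0
    by_contra hx
    have nm : ∀ j ∈ SS X t, Nm j := fun j hj => poly F K (by have := h.n13; rw [h.hn]; omega) j
      (Algebra.norm F '' O) (fun z z0 => by
        rw [o2 z z0, o2 _ ((map_ne_zero_iff j j.injective).2 z0)]
        exact ⟨fun H => by simpa using o1 _ (inv_mem hj) _ H, o1 j hj z⟩)
      ⟨1, ⟨1, ⟨1, one_pow n, 1, one_mem _, by simp⟩, map_one _⟩, one_ne_zero⟩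
      ⟨_, fun H => hx ((o2 x x0).1 H), Algebra.norm_ne_zero_iff.2 x0⟩
    have cP := kt.cardP t (by rw [h.card, Nat.add_sub_cancel]; exact Dvd.intro_left _ rfl)
    have : Finite (Pt F K t) := Nat.finite_of_card_ne_zero (by have := h.big1; omega)
    obtain ⟨_, ⟨s, hs, rfl⟩, s1⟩ := (Subgroup.nontrivial_iff_exists_ne_one _).1
      (Finite.one_lt_card_iff_nontrivial.1 (by rw [cP]; have := h.big1; omega))
    have hs : s ^ t = 1 := hs
    obtain ⟨a, ha⟩ := kt.cop _ t (nm _ (gen_mem_SS hg (mem_Pt.2 ⟨s, hs, rfl⟩)))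
      (by rw [conj_pow, ← map_pow, hs, map_one, mul_one, mul_inv_cancel]) (h.hn ▸ h.copn)
    refine ng (kt.nm_of g s a (kt.ns s t (h.hq ▸ h.cop) hs fun e => s1 (by rw [e, map_one]))
      fun z => ?_)
    exact congrArg (fun f : K ≃ₗ[F] K => f z) (mul_inv_eq_iff_eq_mul.1 ha)
  have o4 : ∀ x, x ≠ 0 → ∃ j ∈ SS X t, j 1 = x := by
    intro x x0
    obtain ⟨c, hc, j, hj, rfl⟩ := o3 x x0
    obtain ⟨y, y0, hy⟩ := exists_root h hc
    obtain ⟨c', -, k, hk, rfl⟩ := o3 y y0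
    obtain ⟨φ, hφ, e⟩ := h.frob
    have e1 : φ⁻¹ 1 = 1 := φ.injective (by rw [e 1, one_pow]; exact φ.apply_symm_apply 1)
    have e2 : φ (k 1) = c • k 1 := by
      rw [← e, map_smul, smul_comm] at hy
      exact smul_right_injective K (left_ne_zero_of_smul y0) hy
    refine ⟨j * (k⁻¹ * (φ * k * φ⁻¹)), mul_mem hj (mul_mem (inv_mem hk) (conj_mem_SS hφ hk)), ?_⟩
    change j (k.symm (φ (k (φ⁻¹ 1)))) = _
    rw [e1, e2, map_smul, k.symm_apply_apply, map_smul]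
  intro x y x0 y0
  obtain ⟨j, hj, rfl⟩ := o4 x x0
  obtain ⟨k, hk, rfl⟩ := o4 y y0
  exact ⟨k * j⁻¹, mul_mem hk (inv_mem hj), congrArg k (j.symm_apply_apply 1)⟩

end Cfsg.Agent.H91.SgStr
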